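import Cfsg.Agent.H4.DihFus

set_option autoImplicit false
set_option linter.style.haveILetI false
set_option linter.unusedSectionVars false
set_option linter.unusedVariables false

/-! Dihedral 2-groups: four-subgroups. -/

namespace Cfsg.Agent.H4

open Cfsg H14

namespace DR

section
variable {S : Type*} [Group S] {n : ℕ} {x y : S}

theorem z_sq (h : DR S (2 * n) x y) : x ^ (n : ℤ) * x ^ (n : ℤ) = 1 := by
  rw [← zpow_add, h.zpow_eq_one_iff]; exact ⟨1, by push_cast; ring⟩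

theorem n_pos (h : DR S (2 * n) x y) : 0 < n := by have := h.hm; omega

theorem z_ne (h : DR S (2 * n) x y) : x ^ (n : ℤ) ≠ 1 := by
  rw [Ne, h.zpow_eq_one_iff]
  rintro ⟨k, hk⟩
  have hn : (n : ℤ) ≠ 0 := by have := h.n_pos; positivity
  have h1 : (n : ℤ) * (2 * k) = n * 1 := by push_cast at hk; linear_combination -hk
  have h2 := mul_left_cancel₀ hn h1
  omega

theorem z_comm (h : DR S (2 * n) x y) (w : S) : x ^ (n : ℤ) * w = w * x ^ (n : ℤ) := by
  rcases h.cov w with ⟨k, rfl⟩ | ⟨k, rfl⟩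
  · rw [← zpow_add, ← zpow_add, add_comm]
  · rw [h.zpow_mul_refl, h.refl_mul_zpow, h.refl_eq]
    exact ⟨1, by push_cast; ring⟩

theorem rot_inv (h : DR S (2 * n) x y) {k : ℤ} (hk : x ^ k * x ^ k = 1) : x ^ k = 1 ∨ x ^ k = x ^ (n : ℤ) := by
  rw [← zpow_add, h.zpow_eq_one_iff] at hk
  obtain ⟨l, hl⟩ := hk
  have h1 : k = n * l := by
    have : 2 * (k - n * l) = 0 := by push_cast at hl; linear_combination hl
    omega
  rcases Int.even_or_odd' l with ⟨j, hj | hj⟩
  · left; rw [h.zpow_eq_one_iff]; exact ⟨j, by rw [h1, hj]; push_cast; ring⟩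
  · right; rw [h.zpow_eq]; exact ⟨j, by rw [h1, hj]; push_cast; ring⟩

/-- the four-group `⟨z, x^k y⟩` -/
def K (h : DR S (2 * n) x y) (k : ℤ) : Subgroup S :=
  kleinSub h.z_sq (h.refl_sq k) (h.z_comm _)

theorem mem_K (h : DR S (2 * n) x y) {k : ℤ} {g : S} :
    g ∈ h.K k ↔ g = 1 ∨ g = x ^ (n : ℤ) ∨ g = x ^ k * y ∨ g = x ^ (n + k : ℤ) * y := by
  show g = 1 ∨ g = _ ∨ g = _ ∨ g = x ^ (n : ℤ) * (x ^ k * y) ↔ _
  rw [h.zpow_mul_refl]

theorem z_ne_refl (h : DR S (2 * n) x y) (k : ℤ) : x ^ (n : ℤ) ≠ x ^ k * y := h.zpow_ne_refl _ _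

theorem K_klein (h : DR S (2 * n) x y) (k : ℤ) : IsKleinFour (h.K k) :=
  kleinSub_isKleinFour _ _ _ h.z_ne (h.refl_ne_one k) (h.z_ne_refl k)

theorem klein_struct (h : DR S (2 * n) x y) {T : Subgroup S} (hT : IsKleinFour T) : ∃ k : ℤ, T = h.K k := by
  -- a reflection in T
  have h1 : ∃ k : ℤ, x ^ k * y ∈ T := by
    by_contra hcon
    push Not at hcon
    obtain ⟨a, ha, b, hb, ha1, hb1, hab⟩ := exists_klein_elts hT
    rcases h.cov a with ⟨k, rfl⟩ | ⟨k, rfl⟩
    · rcases h.cov b with ⟨l, rfl⟩ | ⟨l, rfl⟩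
      · have e1 := (h.rot_inv (klein_sq hT ha)).resolve_left ha1
        have e2 := (h.rot_inv (klein_sq hT hb)).resolve_left hb1
        exact hab (e1.trans e2.symm)
      · exact hcon l hb
    · exact hcon k ha
  obtain ⟨k, hk⟩ := h1
  have h2 : x ^ (n : ℤ) ∈ T := by
    obtain ⟨a, ha, b, hb, ha1, hb1, hab⟩ := exists_klein_elts hT
    have key : ∀ a ∈ T, a ≠ 1 → a ≠ x ^ k * y → x ^ (n : ℤ) ∈ T := by
      intro a ha ha1 hak
      rcases h.cov a with ⟨l, rfl⟩ | ⟨l, rfl⟩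
      · rw [← (h.rot_inv (klein_sq hT ha)).resolve_left ha1]; exact ha
      · have h3 := mul_mem ha hk
        rw [h.refl_mul_refl] at h3
        rcases h.rot_inv (klein_sq hT h3) with h4 | h4
        · exfalso
          rw [h.zpow_eq_one_iff] at h4
          exact hak (h.refl_eq.2 h4)
        · rw [← h4]; exact h3
    by_cases hak : a = x ^ k * y
    · exact key b hb hb1 (fun h => hab (hak.trans h.symm))
    · exact key a ha ha1 hak
  refine ⟨k, (klein_eq_of_le (h.K_klein k) hT ?_).symm⟩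
  intro g hg
  rcases (mem_kleinSub _ _ _).1 hg with rfl | rfl | rfl | rfl
  · exact one_mem _
  · exact h2
  · exact hk
  · exact mul_mem h2 hk

theorem conj_refl (h : DR S (2 * n) x y) (j k : ℤ) : x ^ j * (x ^ k * y) * (x ^ j)⁻¹ = x ^ (k + 2 * j) * y := by
  rw [h.zpow_mul_refl, ← zpow_neg, h.refl_mul_zpow]; congr 2; ring

theorem conj_refl' (h : DR S (2 * n) x y) (j k : ℤ) : (x ^ j * y) * (x ^ k * y) * (x ^ j * y)⁻¹ = x ^ (2 * j - k) * y := by
  rw [h.refl_mul_refl, h.refl_inv, h.zpow_mul_refl]; congr 2; ring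

theorem K_conj (h : DR S (2 * n) x y) (j k : ℤ) : cj (x ^ j) (h.K k) = h.K (k + 2 * j) := by
  apply klein_eq_of_le (isKleinFour_cj (h.K_klein k) _) (h.K_klein _)
  rintro _ ⟨g, hg, rfl⟩
  show x ^ j * g * (x ^ j)⁻¹ ∈ _
  rcases h.mem_K.1 hg with rfl | rfl | rfl | rfl
  · rw [mul_one, mul_inv_cancel]; exact one_mem _
  · rw [← h.z_comm, mul_inv_cancel_right]; exact h.mem_K.2 (Or.inr (Or.inl rfl))
  · rw [h.conj_refl]; exact h.mem_K.2 (Or.inr (Or.inr (Or.inl rfl)))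
  · rw [h.conj_refl]; exact h.mem_K.2 (Or.inr (Or.inr (Or.inr (by rw [add_assoc]))))

/-- parity of reflections -/
theorem refl_parity (h : DR S (2 * n) x y) {k l : ℤ} (hkl : x ^ k * y = x ^ l * y) : (2 : ℤ) ∣ k - l := by
  rw [h.refl_eq] at hkl
  exact dvd_trans ⟨n, by push_cast; ring⟩ hkl

theorem conj_parity (h : DR S (2 * n) x y) {k l : ℤ} (s : S) (hs : s * (x ^ k * y) * s⁻¹ = x ^ l * y) : (2 : ℤ) ∣ k - l := by
  rcases h.cov s with ⟨j, rfl⟩ | ⟨j, rfl⟩
  · rw [h.conj_refl] at hs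
    have := h.refl_parity hs
    omega
  · rw [h.conj_refl'] at hs
    have := h.refl_parity hs
    omega

end

section
variable {S : Type*} [Group S] {e : ℕ} {x y : S}

theorem z4_even (h : DR S (2 * (2 * e)) x y) : (x ^ (((2 * e : ℕ) : ℤ))) = x ^ (2 * e : ℤ) := by push_cast; rfl

/-- the quarter rotation normalizes every `K k` and does not centralize it -/
theorem quarter (h : DR S (2 * (2 * e)) x y) (k : ℤ) : x ^ (e : ℤ) * (x ^ k * y) * (x ^ (e : ℤ))⁻¹ = x ^ (((2 * e : ℕ) : ℤ) + k) * y := by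
  rw [h.conj_refl]; congr 2; push_cast; ring

theorem quarter_norm (h : DR S (2 * (2 * e)) x y) (k : ℤ) : x ^ (e : ℤ) ∈ Subgroup.normalizer (h.K k : Set S) := by
  rw [mem_normalizer_cj, h.K_conj]
  apply klein_eq_of_le (h.K_klein _) (h.K_klein _)
  intro g hg
  rcases h.mem_K.1 hg with rfl | rfl | rfl | rfl
  · exact one_mem _
  · exact h.mem_K.2 (Or.inr (Or.inl rfl))
  · apply h.mem_K.2
    right; right; right
    rw [h.refl_eq]; exact ⟨0, by push_cast; ring⟩
  · apply h.mem_K.2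
    right; right; left
    rw [h.refl_eq]; exact ⟨1, by push_cast; ring⟩

theorem quarter_ne (h : DR S (2 * (2 * e)) x y) (k : ℤ) : x ^ (e : ℤ) ∉ Subgroup.centralizer (h.K k : Set S) := by
  intro h1
  have h2 := Subgroup.mem_centralizer_iff.1 h1 (x ^ k * y) (h.mem_K.2 (Or.inr (Or.inr (Or.inl rfl))))
  have h3 := h.quarter k
  rw [← h2, mul_inv_cancel_right, h.refl_eq] at h3
  obtain ⟨l, hl⟩ := h3
  have he : (e : ℤ) ≠ 0 := by have := h.n_pos; have h0 : e ≠ 0 := by omega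
                              exact_mod_cast h0
  have h4 : (e : ℤ) * (4 * l) = e * (-2) := by push_cast at hl; linear_combination -hl
  have h5 := mul_left_cancel₀ he h4
  omega

end

end DR

end Cfsg.Agent.H4
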