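import Cfsg.Agent.H4.DihFus2

set_option autoImplicit false
set_option linter.style.haveILetI false
set_option linter.unusedSectionVars false
set_option linter.unusedVariables false

/-! Groups with dihedral Sylow 2-subgroups. -/

namespace Cfsg.Agent.H4

open Cfsg H14

section
variable {G : Type*} [Group G] [Finite G] {P : Sylow 2 G}

/-- a dihedral Sylow subgroup has order `2m` with `m` a power of two -/
theorem dih_sylow {m : ℕ} {x y : (P : Subgroup G)} (h : DR (P : Subgroup G) m x y) : ∃ k : ℕ, m = 2 ^ (k + 1) := by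
  haveI : Fact (Nat.Prime 2) := ⟨Nat.prime_two⟩
  obtain ⟨j, hj⟩ := IsPGroup.iff_card.1 P.isPGroup'
  rw [h.card] at hj
  have hd : m ∣ 2 ^ j := ⟨2, by rw [← hj]; ring⟩
  obtain ⟨k, -, hk⟩ := (Nat.dvd_prime_pow Nat.prime_two).1 hd
  have := h.hm
  cases k with
  | zero => rw [hk] at this; norm_num at this
  | succ k => exact ⟨k, hk⟩

theorem klein_two_group {U : Subgroup G} (hU : IsKleinFour U) : IsPGroup 2 U :=
  IsPGroup.of_card (n := 2) (by rw [hU.card_four]; norm_num)

/-- Sylow subgroups that are four-groups -/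
theorem klein_conj_of_card (hP : Nat.card (P : Subgroup G) = 4) {U : Subgroup G} (hU : IsKleinFour U) :
    ∃ g : G, cj g U = (P : Subgroup G) := by
  haveI : Fact (Nat.Prime 2) := ⟨Nat.prime_two⟩
  obtain ⟨g, hg⟩ := exists_map_conj_le_sylow P U (klein_two_group hU)
  refine ⟨g, Subgroup.eq_of_le_of_card_ge hg ?_⟩
  rw [hP, (isKleinFour_cj hU g).card_four]

variable {n : ℕ} {x y : (P : Subgroup G)}

theorem DR.klein_in (h : DR (P : Subgroup G) (2 * n) x y) {U : Subgroup G} (hU : IsKleinFour U) (hUP : U ≤ (P : Subgroup G)) :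
    ∃ k : ℤ, U = (h.K k).map (P : Subgroup G).subtype := by
  obtain ⟨k, hk⟩ := h.klein_struct (klein_subgroupOf hU hUP)
  refine ⟨k, ?_⟩
  rw [← hk, Subgroup.subgroupOf_map_subtype, inf_of_le_left hUP]

theorem map_cj {P : Subgroup G} (s : P) (U : Subgroup P) : (cj s U).map P.subtype = cj (s : G) (U.map P.subtype) := by
  rw [cj, cj, Subgroup.map_map, Subgroup.map_map]; rfl

theorem DR.klein_conj_two (h : DR (P : Subgroup G) (2 * n) x y) {U : Subgroup G} (hU : IsKleinFour U) :
    ∃ g : G, cj g U = (h.K 0).map (P : Subgroup G).subtype ∨ cj g U = (h.K 1).map (P : Subgroup G).subtype := by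
  haveI : Fact (Nat.Prime 2) := ⟨Nat.prime_two⟩
  obtain ⟨g, hg⟩ := exists_map_conj_le_sylow P U (klein_two_group hU)
  obtain ⟨k, hk⟩ := h.klein_in (isKleinFour_cj hU g) hg
  rcases Int.even_or_odd' k with ⟨j, hj | hj⟩
  · refine ⟨((x ^ (-j) : (P : Subgroup G)) : G) * g, Or.inl ?_⟩
    rw [← cj_cj, hk, ← map_cj, h.K_conj, hj]; congr 2; ring
  · refine ⟨((x ^ (-j) : (P : Subgroup G)) : G) * g, Or.inr ?_⟩
    rw [← cj_cj, hk, ← map_cj, h.K_conj, hj]; congr 2; ring

theorem DR.not_conj (h : DR (P : Subgroup G) (2 * (2 * n)) x y) (g : G) :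
    cj g ((h.K 0).map (P : Subgroup G).subtype) ≠ (h.K 1).map (P : Subgroup G).subtype := by
  intro h1
  have hU0 := isKleinFour_map (h.K_klein 0)
  obtain ⟨s, hs, hs2⟩ := h.fusion_klein hU0 (Subgroup.map_subtype_le _) (g := g) (by rw [h1]; exact Subgroup.map_subtype_le _)
  rw [h1] at hs2
  have h3 : (h.K 1).map (P : Subgroup G).subtype = (cj ⟨s, hs⟩ (h.K 0)).map (P : Subgroup G).subtype := by
    rw [map_cj]; exact hs2
  have h4 := Subgroup.map_injective (P : Subgroup G).subtype_injective h3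
  have h5 : x ^ (1 : ℤ) * y ∈ h.K 1 := h.mem_K.2 (Or.inr (Or.inr (Or.inl rfl)))
  rw [h4] at h5
  obtain ⟨w, hw, hw2⟩ := h5
  have hw3 : (⟨s, hs⟩ : (P : Subgroup G)) * w * ⟨s, hs⟩⁻¹ = x ^ (1 : ℤ) * y := hw2
  rcases h.mem_K.1 hw with rfl | rfl | rfl | rfl
  · rw [mul_one, mul_inv_cancel] at hw3
    exact h.refl_ne_one 1 hw3.symm
  · rw [← h.z_comm, mul_inv_cancel_right] at hw3
    exact h.z_ne_refl 1 hw3
  · have := h.conj_parity _ hw3
    omega
  · have := h.conj_parity _ hw3
    push_cast at this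
    omega

/-- every involution is conjugate to `z`, `y` or `x y` -/
theorem DR.inv_all (h : DR (P : Subgroup G) (2 * n) x y) {g : G} (hg : orderOf g = 2) :
    IsConj ((x ^ (n : ℤ) : (P : Subgroup G)) : G) g ∨ IsConj ((x ^ (0 : ℤ) * y : (P : Subgroup G)) : G) g ∨
      IsConj ((x ^ (1 : ℤ) * y : (P : Subgroup G)) : G) g := by
  obtain ⟨s, hs, hc⟩ := exists_conj_in_sylow P (t := g) (k := 1) (by rw [hg]; norm_num)
  rw [pow_one] at hs
  rcases h.cov s with ⟨k, rfl⟩ | ⟨k, rfl⟩
  · left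
    have h1 := (h.rot_inv (mul_self_of_orderOf_two hs)).resolve_left (ne_one_of_orderOf_two hs)
    rw [← h1]; exact hc
  · rcases Int.even_or_odd' k with ⟨j, rfl | rfl⟩
    · right; left
      refine IsConj.trans (isConj_coe (isConj_iff.2 ⟨x ^ j, ?_⟩)) hc
      rw [h.conj_refl]; congr 2; ring
    · right; right
      refine IsConj.trans (isConj_coe (isConj_iff.2 ⟨x ^ j, ?_⟩)) hc
      rw [h.conj_refl]; congr 2; ring

/-- automizer of order 6 of a four-group: `z` is conjugate to the reflections of the four-group -/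
theorem DR.klein6 (h : DR (P : Subgroup G) (2 * n) x y) {k : ℤ}
    (h6 : (Subgroup.centralizer (((h.K k).map (P : Subgroup G).subtype : Subgroup G) : Set G)).relIndex
      (Subgroup.normalizer (((h.K k).map (P : Subgroup G).subtype : Subgroup G) : Set G)) = 6) :
    IsConj ((x ^ (n : ℤ) : (P : Subgroup G)) : G) ((x ^ k * y : (P : Subgroup G)) : G) := by
  have hU := isKleinFour_map (h.K_klein k)
  have hz : ((x ^ (n : ℤ) : (P : Subgroup G)) : G) ∈ (h.K k).map (P : Subgroup G).subtype := ⟨_, Or.inr (Or.inl rfl), rfl⟩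
  have hy : ((x ^ k * y : (P : Subgroup G)) : G) ∈ (h.K k).map (P : Subgroup G).subtype :=
    ⟨_, Or.inr (Or.inr (Or.inl rfl)), rfl⟩
  have hp := klein_perm3 hU hz hy (coe_ne_one h.z_ne) (coe_ne_one (h.refl_ne_one k)) (fun h1 => h.z_ne_refl k (Subtype.ext h1))
  obtain ⟨n', hn, hA⟩ := hp.exists_of_six h6 (Equiv.swap 0 1)
  have h0 := hA 0
  rw [Equiv.swap_apply_left] at h0
  have h1 : Subgroup.zpowers (n' * ((x ^ (n : ℤ) : (P : Subgroup G)) : G) * n'⁻¹) =
      Subgroup.zpowers ((x ^ k * y : (P : Subgroup G)) : G) := by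
    rw [← cj_zpowers]; exact h0
  have h2 := zpowers_invol_inj (klein_sq hU ((Subgroup.mem_normalizer_iff.1 hn _).1 hz)) (klein_sq hU hy) (by
    intro h3; apply coe_ne_one h.z_ne; rw [mul_inv_eq_one] at h3; simpa using h3) h1
  exact isConj_iff.2 ⟨n', h2⟩

/-- automizers of four-groups have order 2 or 6 -/
theorem DR.two_or_six (h : DR (P : Subgroup G) (2 * (2 * n)) x y) (k : ℤ) :
    (Subgroup.centralizer (((h.K k).map (P : Subgroup G).subtype : Subgroup G) : Set G)).relIndex
      (Subgroup.normalizer (((h.K k).map (P : Subgroup G).subtype : Subgroup G) : Set G)) = 2 ∨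
    (Subgroup.centralizer (((h.K k).map (P : Subgroup G).subtype : Subgroup G) : Set G)).relIndex
      (Subgroup.normalizer (((h.K k).map (P : Subgroup G).subtype : Subgroup G) : Set G)) = 6 := by
  have hU := isKleinFour_map (h.K_klein k)
  have hz : ((x ^ ((2 * n : ℕ) : ℤ) : (P : Subgroup G)) : G) ∈ (h.K k).map (P : Subgroup G).subtype := ⟨_, Or.inr (Or.inl rfl), rfl⟩
  have hy : ((x ^ k * y : (P : Subgroup G)) : G) ∈ (h.K k).map (P : Subgroup G).subtype :=
    ⟨_, Or.inr (Or.inr (Or.inl rfl)), rfl⟩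
  have hp := klein_perm3 hU hz hy (coe_ne_one h.z_ne) (coe_ne_one (h.refl_ne_one k)) (fun h1 => h.z_ne_refl k (Subtype.ext h1))
  have hUP : (h.K k).map (P : Subgroup G).subtype ≤ (P : Subgroup G) := Subgroup.map_subtype_le _
  have hKK : ((h.K k).map (P : Subgroup G).subtype).subgroupOf (P : Subgroup G) = h.K k := by
    rw [Subgroup.subgroupOf, Subgroup.comap_map_eq_self_of_injective (P : Subgroup G).subtype_injective]
  obtain ⟨j, hj⟩ := two_pow_of_mem P (x ^ (n : ℤ)).2
  refine hp.two_or_six (s := ((x ^ (n : ℤ) : (P : Subgroup G)) : G)) ?_ ?_ hj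
  · apply (mem_normalizer_subgroupOf_iff hUP).1
    rw [hKK]; exact h.quarter_norm k
  · intro h1
    have h2 := (mem_centralizer_subgroupOf_iff hUP).2 h1
    rw [hKK] at h2
    exact h.quarter_ne k h2

end

end Cfsg.Agent.H4
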