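import Cfsg.Agent.H4.DihFus3

set_option autoImplicit false
set_option linter.style.haveILetI false
set_option linter.unusedSectionVars false
set_option linter.unusedVariables false

/-! Subgroups of index two of dihedral groups. -/

namespace Cfsg.Agent.H4

open Cfsg H14

namespace DR

section
variable {S : Type*} [Group S] {n : ℕ} {x y : S}

/-- the dihedral subgroup of index two containing the reflections `x^k y`, `k ≡ δ` -/
def M (h : DR S (2 * n) x y) (δ : ℤ) : Subgroup S where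
  carrier := {g | (∃ k : ℤ, g = x ^ (2 * k)) ∨ ∃ k : ℤ, g = x ^ (2 * k + δ) * y}
  one_mem' := Or.inl ⟨0, by simp⟩
  mul_mem' := by
    rintro a b (⟨k, rfl⟩ | ⟨k, rfl⟩) (⟨l, rfl⟩ | ⟨l, rfl⟩)
    · exact Or.inl ⟨k + l, by rw [← zpow_add]; congr 1; ring⟩
    · exact Or.inr ⟨k + l, by rw [h.zpow_mul_refl]; congr 2; ring⟩
    · exact Or.inr ⟨k - l, by rw [h.refl_mul_zpow]; congr 2; ring⟩
    · exact Or.inl ⟨k - l, by rw [h.refl_mul_refl]; congr 1; ring⟩
  inv_mem' := by
    rintro a (⟨k, rfl⟩ | ⟨k, rfl⟩)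
    · exact Or.inl ⟨-k, by rw [← zpow_neg]; congr 1; ring⟩
    · exact Or.inr ⟨k, h.refl_inv _⟩

theorem rot_mem_M (h : DR S (2 * n) x y) {δ j : ℤ} : x ^ j ∈ h.M δ ↔ 2 ∣ j := by
  constructor
  · rintro (⟨k, hk⟩ | ⟨k, hk⟩)
    · rw [h.zpow_eq] at hk
      obtain ⟨l, hl⟩ := hk
      have : j = 2 * (k + n * l) := by push_cast at hl; linear_combination hl
      exact ⟨_, this⟩
    · exact absurd hk (h.zpow_ne_refl _ _)
  · rintro ⟨k, rfl⟩
    exact Or.inl ⟨k, rfl⟩

theorem refl_mem_M (h : DR S (2 * n) x y) {δ j : ℤ} : x ^ j * y ∈ h.M δ ↔ 2 ∣ j - δ := by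
  constructor
  · rintro (⟨k, hk⟩ | ⟨k, hk⟩)
    · exact absurd hk.symm (h.zpow_ne_refl _ _)
    · rw [h.refl_eq] at hk
      obtain ⟨l, hl⟩ := hk
      have : j - δ = 2 * (k + n * l) := by push_cast at hl; linear_combination hl
      exact ⟨_, this⟩
  · rintro ⟨k, hk⟩
    exact Or.inr ⟨k, by rw [← hk]; congr 2; ring⟩

theorem M_index (h : DR S (2 * n) x y) (δ : ℤ) : (h.M δ).index = 2 := by
  rw [Subgroup.index_eq_two_iff]
  refine ⟨x ^ (1 : ℤ), fun b => ?_⟩
  rcases h.cov b with ⟨k, rfl⟩ | ⟨k, rfl⟩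
  · rw [← zpow_add, h.rot_mem_M, h.rot_mem_M]
    rcases Int.even_or_odd' k with ⟨j, rfl | rfl⟩
    · exact Or.inr ⟨⟨j, rfl⟩, by omega⟩
    · exact Or.inl ⟨⟨j + 1, by ring⟩, by omega⟩
  · rw [h.refl_mul_zpow, h.refl_mem_M, h.refl_mem_M]
    rcases Int.even_or_odd' (k - δ) with ⟨j, hj | hj⟩
    · exact Or.inr ⟨⟨j, hj⟩, by omega⟩
    · exact Or.inl ⟨⟨j, by omega⟩, by omega⟩

end

section
variable {G : Type*} [Group G] [Finite G] {P : Sylow 2 G} {n : ℕ} {x y : (P : Subgroup G)}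

theorem exists_index_two (h : DR (P : Subgroup G) (2 * (2 * n)) x y) (δ : ℤ)
    (hz : ∀ k : ℤ, 2 ∣ k - δ - 1 → ¬ IsConj ((x ^ ((2 * n : ℕ) : ℤ) : (P : Subgroup G)) : G) ((x ^ k * y : (P : Subgroup G)) : G)) :
    ∃ K : Subgroup G, K.index = 2 := by
  haveI : Fact (Nat.Prime 2) := ⟨Nat.prime_two⟩
  have hn : ((h.M δ).index) = 2 := h.M_index δ
  have hnorm : (h.M δ).Normal := Subgroup.normal_of_index_eq_two hn
  have hle : (h.M δ).map (P : Subgroup G).subtype ≤ (P : Subgroup G) := Subgroup.map_subtype_le _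
  have hmem : ∀ a : (P : Subgroup G), (a : G) ∈ (h.M δ).map (P : Subgroup G).subtype ↔ a ∈ h.M δ := by
    intro a
    constructor
    · rintro ⟨b, hb, hba⟩
      have : b = a := Subtype.ext hba
      exact this ▸ hb
    · intro ha; exact ⟨a, ha, rfl⟩
  have hrel : ((h.M δ).map (P : Subgroup G).subtype).relIndex (P : Subgroup G) = 2 := by
    rw [Subgroup.relIndex, Subgroup.subgroupOf, Subgroup.comap_map_eq_self_of_injective (P : Subgroup G).subtype_injective, hn]
  obtain ⟨K, -, hK, -⟩ := exists_index_two_of_fusion P hle hrel (by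
    intro a ha b hb hab haM
    obtain ⟨g, hg⟩ := isConj_iff.1 hab
    rw [← hg] at hb ⊢
    refine h.fusion (fun a b => a ∈ (h.M δ).map (P : Subgroup G).subtype → b ∈ (h.M δ).map (P : Subgroup G).subtype)
      (fun a ha => ha) (fun a b c h1 h2 h3 => h2 (h1 h3)) ?_ ?_ ha hb haM
    · intro s hs a ha haM
      have h1 := (hmem ⟨a, ha⟩).1 haM
      exact (hmem (⟨s, hs⟩ * ⟨a, ha⟩ * ⟨s, hs⟩⁻¹)).2 (hnorm.conj_mem _ h1 _)
    · intro U hUP hU m hm a ha haM
      obtain ⟨k, hk⟩ := h.klein_in hU hUP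
      have hma : m * a * m⁻¹ ∈ U := (Subgroup.mem_normalizer_iff.1 hm a).1 ha
      rw [hk] at ha hma
      obtain ⟨b, hb, hba⟩ := ha
      obtain ⟨c, hc, hca⟩ := hma
      rw [← hca]
      rw [← hba] at haM hca
      have hbM := (hmem b).1 haM
      refine (hmem c).2 ?_
      have hzM : x ^ ((2 * n : ℕ) : ℤ) ∈ h.M δ := h.rot_mem_M.2 ⟨n, by push_cast; ring⟩
      by_cases hkd : (2 : ℤ) ∣ k - δ
      · rcases h.mem_K.1 hc with rfl | rfl | rfl | rfl
        · exact one_mem _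
        · exact hzM
        · exact h.refl_mem_M.2 hkd
        · rw [h.refl_mem_M]; push_cast; omega
      · have hbc : IsConj (b : G) (c : G) := isConj_iff.2 ⟨m, hca.symm⟩
        have hb' : b = 1 ∨ b = x ^ ((2 * n : ℕ) : ℤ) := by
          rcases h.mem_K.1 hb with hb' | hb' | hb' | hb'
          · exact Or.inl hb'
          · exact Or.inr hb'
          · rw [hb', h.refl_mem_M] at hbM; exact absurd hbM hkd
          · rw [hb', h.refl_mem_M] at hbM; push_cast at hbM; omega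
        rcases hb' with rfl | rfl
        · have : c = 1 := by
            apply Subtype.ext
            exact isConj_one_right.1 hbc
          rw [this]; exact one_mem _
        · rcases h.mem_K.1 hc with rfl | rfl | rfl | rfl
          · exact one_mem _
          · exact hzM
          · exact absurd hbc (hz _ (by omega))
          · exact absurd hbc (hz _ (by push_cast; omega)))
  exact ⟨K, hK⟩

end

end DR

end Cfsg.Agent.H4
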