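import Cfsg.Agent.H10.AxB
import Cfsg.Agent.H10.Comp2
import Cfsg.Agent.H23.Nilp

set_option autoImplicit false
set_option linter.style.haveILetI false
set_option linter.unusedSectionVars false
set_option linter.unusedVariables false

/-! Subnormal subgroups of `F*(K)` containing their centralizer in `F*(K)`. -/

namespace Cfsg.Agent.H4

open Cfsg

section
variable {K : Type*} [Group K]

/-- the part of `F*(K)` generated by the layer and the `O_r(K)`, `r ≠ p` -/
def fsp (p : ℕ) (K : Type*) [Group K] : Subgroup K :=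
  layer K ⊔ ⨆ r : Nat.Primes, ⨆ (_ : (r : ℕ) ≠ p), pCore (r : ℕ) K

theorem layer_le_fsp (p : ℕ) : layer K ≤ fsp p K := le_sup_left

theorem pCore_le_fsp {p r : ℕ} [hr : Fact r.Prime] (h : r ≠ p) : pCore r K ≤ fsp p K :=
  le_trans (le_iSup_of_le (⟨r, hr.out⟩ : Nat.Primes) (le_iSup_of_le (f := fun _ : r ≠ p => pCore r K) h le_rfl)) le_sup_right

theorem fsp_le {p : ℕ} {C : Subgroup K} (h1 : layer K ≤ C) (h2 : ∀ (r : ℕ) [Fact r.Prime], r ≠ p → pCore r K ≤ C) : fsp p K ≤ C := by
  refine sup_le h1 (iSup_le fun r => iSup_le fun hr => ?_)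
  haveI : Fact (r : ℕ).Prime := ⟨r.2⟩
  exact h2 r hr

variable [Finite K]

theorem genFitting_eq_fsp_sup (p : ℕ) [Fact p.Prime] : generalizedFittingSubgroup K = fsp p K ⊔ pCore p K := by
  apply le_antisymm
  · rw [generalizedFittingSubgroup, H1.fitting_eq_iSup_pCore]
    refine sup_le ((layer_le_fsp p).trans le_sup_left) (iSup_le fun r => ?_)
    haveI : Fact (r : ℕ).Prime := ⟨r.2⟩
    by_cases h : (r : ℕ) = p
    · rw [h]; exact le_sup_right
    · exact (pCore_le_fsp h).trans le_sup_left
  · refine sup_le (fsp_le (H10.layer_le_genFitting K) fun r _ _ => ?_) ?_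
    · exact (H10.pCore_le_fitting r).trans (H10.fitting_le_genFitting K)
    · exact (H10.pCore_le_fitting p).trans (H10.fitting_le_genFitting K)

theorem fsp_le_centralizer (p : ℕ) [Fact p.Prime] : fsp p K ≤ Subgroup.centralizer (pCore p K : Set K) := by
  apply fsp_le
  · exact H10.layer_le_centralizer_fitting.trans (Subgroup.centralizer_le (H10.pCore_le_fitting p))
  · intro r _ hr
    rw [← Subgroup.commutator_eq_bot_iff_le_centralizer, eq_bot_iff]
    refine (Subgroup.commutator_le_inf _ _).trans ?_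
    exact (IsPGroup.disjoint_of_ne r p hr _ _ (H10.pCore_isPGroup r K) (H10.pCore_isPGroup p K)).le_bot

theorem fsp_comm (p : ℕ) [Fact p.Prime] : ⁅fsp p K, pCore p K⁆ = ⊥ :=
  Subgroup.commutator_eq_bot_iff_le_centralizer.2 (fsp_le_centralizer p)

theorem exists_fsp_mul (p : ℕ) [Fact p.Prime] {v : K} (hv : v ∈ generalizedFittingSubgroup K) :
    ∃ a ∈ fsp p K, ∃ b ∈ pCore p K, a * b = v := by
  rw [genFitting_eq_fsp_sup p] at hv
  exact (H10.mem_sup_iff_of_commutes (fsp_comm p)).1 hv

theorem fsp_commute (p : ℕ) [Fact p.Prime] {a b : K} (ha : a ∈ fsp p K) (hb : b ∈ pCore p K) : Commute a b :=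
  (Subgroup.mem_centralizer_iff.1 (fsp_le_centralizer p ha) b hb).symm

/-- `p'`-elements of `F*(K)` -/
theorem mem_fsp_of_coprime (p : ℕ) [hp : Fact p.Prime] {v : K} (hv : v ∈ generalizedFittingSubgroup K) (hc : (orderOf v).Coprime p) :
    v ∈ fsp p K := by
  obtain ⟨a, ha, b, hb, rfl⟩ := exists_fsp_mul p hv
  have hab := fsp_commute p ha hb
  have h1 : a ^ orderOf (a * b) * b ^ orderOf (a * b) = 1 := by
    rw [← hab.mul_pow, pow_orderOf_eq_one]
  have h2 : b ^ orderOf (a * b) ∈ fsp p K := by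
    have : b ^ orderOf (a * b) = (a ^ orderOf (a * b))⁻¹ := (inv_eq_of_mul_eq_one_right h1).symm
    rw [this]; exact inv_mem (pow_mem ha _)
  obtain ⟨k, hk⟩ := (H10.pCore_isPGroup p K) ⟨b, hb⟩
  have hk' : b ^ p ^ k = 1 := congrArg Subtype.val hk
  have h3 : (orderOf (a * b)).Coprime (orderOf b) :=
    Nat.Coprime.coprime_dvd_right (orderOf_dvd_of_pow_eq_one hk') (Nat.Coprime.pow_right k hc)
  obtain ⟨m, hm⟩ := exists_pow_eq_self_of_coprime h3
  have h4 : b ∈ fsp p K := by rw [← hm]; exact pow_mem h2 m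
  exact mul_mem ha h4

theorem coprime_commute_pCore (p : ℕ) [Fact p.Prime] {v b : K} (hv : v ∈ generalizedFittingSubgroup K) (hc : (orderOf v).Coprime p)
    (hb : b ∈ pCore p K) : Commute v b := fsp_commute p (mem_fsp_of_coprime p hv hc) hb

/-- solvable subgroups of `F*(K)` normalized by the layer -/
theorem le_fitting_of_solvable {W : Subgroup K} (hW : W ≤ generalizedFittingSubgroup K) (hs : Group.IsSolvable W)
    (hn : layer K ≤ Subgroup.normalizer (W : Set K)) : W ≤ fittingSubgroup K := by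
  have h1 := H10.layer_commutes_solvable hs hn
  rw [Subgroup.commutator_eq_bot_iff_le_centralizer] at h1
  intro w hw
  have h2 : ⁅layer K, fittingSubgroup K⁆ = ⊥ := by rw [Subgroup.commutator_comm]; exact H10.fitting_commutes_layer
  obtain ⟨e, he, f, hf, rfl⟩ := (H10.mem_sup_iff_of_commutes h2).1 (hW hw)
  have h3 : f ∈ Subgroup.centralizer (layer K : Set K) := by
    rw [Subgroup.commutator_comm, Subgroup.commutator_eq_bot_iff_le_centralizer] at h2
    exact h2 hf
  have h4 : e ∈ Subgroup.centralizer (layer K : Set K) := by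
    have := mul_mem (h1 hw) (inv_mem h3)
    rwa [mul_inv_cancel_right] at this
  have h5 : e ∈ (Subgroup.center (layer K)).map (layer K).subtype := by
    rw [H10.mem_center_map_iff]
    exact ⟨he, fun y hy => Subgroup.mem_centralizer_iff.1 h4 y hy⟩
  rw [H10.center_layer_eq] at h5
  exact mul_mem h5.1 hf

/-! ### large subnormal subgroups -/

section
variable {S : Subgroup K} (hS : S.IsSubnormal) (hSF : S ≤ generalizedFittingSubgroup K)
  (hSC : generalizedFittingSubgroup K ⊓ Subgroup.centralizer (S : Set K) ≤ S)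
include hS hSC

theorem layer_le_of_large : layer K ≤ S := by
  apply sSup_le
  intro L hL
  rcases H10.comp_le_or_commutes hL hS with h | h
  · exact h
  · rw [Subgroup.commutator_comm, Subgroup.commutator_eq_bot_iff_le_centralizer] at h
    exact (le_inf ((H10.le_layer hL).trans (H10.layer_le_genFitting K)) h).trans hSC

include hSF

theorem pCore_centralizer_le (p : ℕ) [hp : Fact p.Prime] :
    pCore p K ⊓ Subgroup.centralizer ((S ⊓ pCore p K : Subgroup K) : Set K) ≤ S := by
  have hE := layer_le_of_large hS hSC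
  rintro x ⟨hx, hxc⟩
  apply hSC
  refine Subgroup.mem_inf.2 ⟨H10.fitting_le_genFitting K (H10.pCore_le_fitting p hx), ?_⟩
  rw [Subgroup.mem_centralizer_iff]
  intro s hs
  have h2 : ⁅layer K, fittingSubgroup K⁆ = ⊥ := by rw [Subgroup.commutator_comm]; exact H10.fitting_commutes_layer
  obtain ⟨e, he, f, hf, rfl⟩ := (H10.mem_sup_iff_of_commutes h2).1 (hSF hs)
  have hfS : f ∈ S := by
    have := mul_mem (inv_mem (hE he)) hs
    rwa [inv_mul_cancel_left] at this
  have hex : Commute e x := fsp_commute p (layer_le_fsp p he) hx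
  have hfx : Commute f x := by
    -- split `f`
    obtain ⟨m, hm1, hm2⟩ : ∃ m k : ℕ, True ∧ True := ⟨0, 0, trivial, trivial⟩
    obtain ⟨k, c, hc, hk⟩ := Nat.exists_eq_pow_mul_and_not_dvd (orderOf_pos f).ne' p hp.out.ne_one
    have hcop : Nat.Coprime (p ^ k) c := Nat.Coprime.pow_left k ((Nat.Prime.coprime_iff_not_dvd hp.out).2 hc)
    -- f ^ c is a p-element, f ^ (p^k) is a p'-element
    have h3 : Commute (f ^ c) x := by
      have h4 : f ^ c ∈ pCore p K := by
        apply H23.mem_pCore_of_mem_fitting (pow_mem hf _)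
        apply IsPGroup.of_card (n := k)
        rw [Nat.card_zpowers, orderOf_pow_of_dvd (by rintro rfl; exact hc (dvd_zero p)) (by rw [hk]; exact dvd_mul_left _ _), hk]
        exact Nat.mul_div_cancel _ (Nat.pos_of_ne_zero (by rintro rfl; exact hc (dvd_zero p)))
      exact Subgroup.mem_centralizer_iff.1 hxc _ (Subgroup.mem_inf.2 ⟨pow_mem hfS _, h4⟩)
    have h5 : Commute (f ^ p ^ k) x := by
      apply coprime_commute_pCore p (H10.fitting_le_genFitting K (pow_mem hf _)) ?_ hx
      rw [orderOf_pow_of_dvd (pow_ne_zero _ hp.out.ne_zero) (by rw [hk]; exact dvd_mul_right _ _), hk,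
        Nat.mul_div_cancel_left _ (pow_pos hp.out.pos _)]
      exact ((Nat.Prime.coprime_iff_not_dvd hp.out).2 hc).symm
    -- f is a product of powers of these
    have h6 : (Nat.gcdA (p ^ k) c : ℤ) * (p ^ k : ℕ) + Nat.gcdB (p ^ k) c * (c : ℕ) = 1 := by
      have := Nat.gcd_eq_gcd_ab (p ^ k) c
      rw [hcop] at this
      push_cast at this ⊢
      linear_combination -this
    have h7 : f = (f ^ p ^ k) ^ (Nat.gcdA (p ^ k) c) * (f ^ c) ^ (Nat.gcdB (p ^ k) c) := by
      rw [← zpow_natCast, ← zpow_natCast, ← zpow_mul, ← zpow_mul, ← zpow_add, mul_comm ((p ^ k : ℕ) : ℤ), mul_comm (c : ℤ), h6, zpow_one]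
    rw [h7]
    exact (h5.zpow_left _).mul_left (h3.zpow_left _)
  exact (hex.mul_left hfx).eq

theorem pCore_comm_of_coprime (p : ℕ) [hp : Fact p.Prime] {X : Subgroup K} (hX : (Nat.card X).Coprime p)
    (hc : ⁅X, S ⊓ pCore p K⁆ = ⊥) : ⁅pCore p K, X⁆ = ⊥ := by
  have hpn : (pCore p K).Normal := inferInstance
  refine H10.axb_coprime hc ((H10.pCore_isPGroup p K).to_le inf_le_right) hX (H10.pCore_isPGroup p K)
    Subgroup.le_normalizer_of_normal Subgroup.le_normalizer_of_normal ?_
  have h1 : pCore p K ⊓ Subgroup.centralizer ((S ⊓ pCore p K : Subgroup K) : Set K) ≤ S ⊓ pCore p K :=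
    le_inf (pCore_centralizer_le hS hSF hSC p) inf_le_left
  rw [eq_bot_iff]
  refine (Subgroup.commutator_mono h1 le_rfl).trans ?_
  rw [Subgroup.commutator_comm, hc]

/-- part (a) -/
theorem eq_bot_of_normalized {q : ℕ} [hq : Fact q.Prime] (hqF : ¬ q ∣ Nat.card (fittingSubgroup K)) {X : Subgroup K} (hX : IsPGroup q X)
    (hn : S ≤ Subgroup.normalizer (X : Set K)) : X = ⊥ := by
  have hE := layer_le_of_large hS hSC
  have hbot : ∀ W : Subgroup K, IsPGroup q W → W ≤ fittingSubgroup K → W = ⊥ := by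
    intro W hW hWF
    obtain ⟨k, hk⟩ := IsPGroup.iff_card.1 hW
    obtain _ | k := k
    · rw [pow_zero, Subgroup.card_eq_one] at hk; exact hk
    · exfalso
      apply hqF
      have h1 : Nat.card W ∣ Nat.card (fittingSubgroup K) := Subgroup.card_dvd_of_le hWF
      rw [hk] at h1
      exact (dvd_pow_self q (Nat.succ_ne_zero k)).trans h1
  have hFn := H10.genFitting_normal K
  have hFn' : X ≤ Subgroup.normalizer (generalizedFittingSubgroup K : Set K) := Subgroup.le_normalizer_of_normal
  have hW : X ⊓ generalizedFittingSubgroup K = ⊥ := by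
    apply hbot _ (hX.to_le inf_le_left)
    apply le_fitting_of_solvable inf_le_right
    · haveI := (hX.to_le (inf_le_left : X ⊓ generalizedFittingSubgroup K ≤ X)).isNilpotent
      infer_instance
    · intro e he
      have h1 := hn (hE he)
      have h2 : e ∈ Subgroup.normalizer (generalizedFittingSubgroup K : Set K) := Subgroup.le_normalizer_of_normal (Subgroup.mem_top e)
      rw [Subgroup.mem_normalizer_iff] at h1 h2 ⊢
      intro w
      rw [Subgroup.mem_inf, Subgroup.mem_inf, h1 w, h2 w]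
  have hXS : ⁅X, S⁆ = ⊥ := by
    rw [eq_bot_iff, ← hW]
    refine le_inf ?_ ?_
    · rw [Subgroup.commutator_le]
      intro x hx s hs
      have h1 : s * x⁻¹ * s⁻¹ ∈ X := (Subgroup.mem_normalizer_iff.1 (hn hs) _).1 (inv_mem hx)
      have h2 : x * (s * x⁻¹ * s⁻¹) ∈ X := mul_mem hx h1
      have h3 : x * (s * x⁻¹ * s⁻¹) = x * s * x⁻¹ * s⁻¹ := by simp only [mul_assoc]
      rw [h3] at h2
      exact h2
    · exact (Subgroup.commutator_mono le_rfl hSF).trans (Subgroup.commutator_le_right _ _)
  apply hbot X hX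
  refine le_trans ?_ H10.centralizer_genFitting_le_fitting
  rw [← Subgroup.commutator_eq_bot_iff_le_centralizer, Subgroup.commutator_comm,
    Subgroup.commutator_eq_bot_iff_le_centralizer, generalizedFittingSubgroup, H1.fitting_eq_iSup_pCore]
  refine sup_le ?_ (iSup_le fun r => ?_)
  · rw [← Subgroup.commutator_eq_bot_iff_le_centralizer, Subgroup.commutator_comm, eq_bot_iff, ← hXS]
    exact Subgroup.commutator_mono le_rfl hE
  · haveI : Fact (r : ℕ).Prime := ⟨r.2⟩
    by_cases hr : (r : ℕ) = q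
    · have : pCore (r : ℕ) K = ⊥ := by
        apply hbot _ _ (H10.pCore_le_fitting _)
        rw [← hr]; exact H10.pCore_isPGroup _ K
      rw [this]; exact bot_le
    · rw [← Subgroup.commutator_eq_bot_iff_le_centralizer]
      apply pCore_comm_of_coprime hS hSF hSC
      · obtain ⟨k, hk⟩ := IsPGroup.iff_card.1 hX
        rw [hk]
        exact Nat.Coprime.pow_left k ((Nat.coprime_primes hq.out r.2).2 (Ne.symm hr))
      · rw [eq_bot_iff, ← hXS]
        exact Subgroup.commutator_mono le_rfl inf_le_left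

end

end

end Cfsg.Agent.H4
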