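import Cfsg.Agent.H14.Conj
import Cfsg.Agent.H18.PCore
import Cfsg.Agent.H4.BaerSuzuki
import Cfsg.Agent.H2.QuadStab
import Mathlib

/-!
# Quadratic classes and unique maximal overgroups of Sylow subgroups (helper4), I
-/

set_option autoImplicit false

open Subgroup Cfsg

namespace Cfsg.Agent.H4

open H14

variable {G : Type*} [Group G]

/-- relative Baer–Suzuki -/
theorem mem_pCoreOf_of_pairs [Finite G] {p : ℕ} [Fact p.Prime] {N : Subgroup G} {a : G}
    (ha : a ∈ N) (h : ∀ n ∈ N, IsPGroup p (closure {a, n * a * n⁻¹})) : a ∈ pCoreOf p N := by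
  obtain ⟨M, hM, hMp, hle⟩ := baer_suzuki (G := N) (p := p) (zpowers ⟨a, ha⟩) (by
    intro n
    have h1 := h n n.2
    have h2 : (zpowers (⟨a, ha⟩ : N) ⊔ (zpowers (⟨a, ha⟩ : N)).map (MulAut.conj n).toMonoidHom).map
        N.subtype ≤ closure {a, (n : G) * a * (n : G)⁻¹} := by
      rw [Subgroup.map_sup, MonoidHom.map_zpowers, MonoidHom.map_zpowers, MonoidHom.map_zpowers]
      apply sup_le
      · rw [zpowers_le]; exact subset_closure (by simp)
      · rw [zpowers_le]; exact subset_closure (by simp)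
    have h3 := h1.to_le h2
    exact H18.isPGroup_map_subtype_iff.1 h3)
  have h1 : a ∈ M.map N.subtype := ⟨⟨a, ha⟩, hle (mem_zpowers _), rfl⟩
  refine H18.le_pCoreOf (Subgroup.map_subtype_le _) ?_ (hMp.map _) h1
  have := Subgroup.le_normalizer_map (H := M) N.subtype
  rw [Subgroup.normalizer_eq_top, ← MonoidHom.range_eq_map, Subgroup.range_subtype] at this
  exact this

theorem exists_odd_pow_two {G : Type*} [Group G] [Finite G] (z : G) :
    ∃ m : ℕ, Odd m ∧ ∃ n : ℕ, orderOf (z ^ m) = 2 ^ n := by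
  obtain ⟨n, m, hm, h⟩ := Nat.exists_eq_two_pow_mul_odd (orderOf_pos z).ne'
  refine ⟨m, hm, n, ?_⟩
  rw [orderOf_pow' z (by rintro rfl; simp at hm), h, Nat.gcd_eq_right (Dvd.intro_left _ rfl)]
  exact Nat.mul_div_cancel _ hm.pos

/-- the two-generator lemma -/
theorem exists_two_elt {L : Type*} [Group L] [Finite L] {p : ℕ} [Fact p.Prime]
    {F : Type*} [Field F] (h2 : (2 : F) ≠ 0) {a b : L} (hgen : closure {a, b} = ⊤)
    (φ : L →* Matrix.SpecialLinearGroup (Fin 2) F) {z : L} (hz : φ z = -1)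
    (ha : ∃ k : ℕ, a ^ p ^ k = 1) (hb : ∃ k : ℕ, b ^ p ^ k = 1)
    (hma : ∀ k ∈ φ.ker, IsPGroup p (closure {a, k * a * k⁻¹}))
    (hmb : ∀ k ∈ φ.ker, IsPGroup p (closure {b, k * b * k⁻¹})) :
    ∃ (i : L) (K₀ : Subgroup L), K₀.Normal ∧ IsPGroup p K₀ ∧ (∃ n : ℕ, orderOf i = 2 ^ n) ∧ i ≠ 1 ∧
      i * a * i⁻¹ * a⁻¹ ∈ K₀ := by
  set K := φ.ker with hK
  set K₀ : Subgroup L := pCoreOf p K with hK₀
  haveI hK₀n : K₀.Normal := by
    rw [← Subgroup.normalizer_eq_top_iff, eq_top_iff]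
    have := H18.normalizer_le_normalizer_pCoreOf (p := p) K
    rwa [Subgroup.normalizer_eq_top] at this
  have hK₀p : IsPGroup p K₀ := H18.isPGroup_pCoreOf K
  -- commutators with `a`
  have key : ∀ x : L, (∀ k ∈ K, IsPGroup p (closure {x, k * x * k⁻¹})) →
      ∀ k ∈ K, x * k * x⁻¹ * k⁻¹ ∈ K₀ := by
    intro x hx k hk
    have hxM : x ∈ K ⊔ zpowers x := (le_sup_right : zpowers x ≤ _) (mem_zpowers x)
    have h1 : x ∈ pCoreOf p (K ⊔ zpowers x) := by
      apply mem_pCoreOf_of_pairs hxM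
      intro n hn
      rw [Subgroup.mem_sup_of_normal_left] at hn
      obtain ⟨k', hk', y, hy, rfl⟩ := hn
      obtain ⟨j, rfl⟩ := hy
      have : k' * x ^ j * x * (k' * x ^ j)⁻¹ = k' * x * k'⁻¹ := by group
      show IsPGroup p (closure {x, k' * x ^ j * x * (k' * x ^ j)⁻¹})
      rw [this]; exact hx k' hk'
    have h2 : pCoreOf p K = K ⊓ pCoreOf p (K ⊔ zpowers x) :=
      H18.pCoreOf_eq_inf_of_normalizes le_sup_left H18.le_normalizer_of_normal
    rw [hK₀, h2]
    refine mem_inf.2 ⟨?_, ?_⟩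
    · exact mul_mem ((inferInstance : K.Normal).conj_mem k hk x) (inv_mem hk)
    · have h3 : k * x⁻¹ * k⁻¹ ∈ pCoreOf p (K ⊔ zpowers x) :=
        H18.conj_mem_of_mem_normalizer (H18.le_normalizer_pCoreOf _ ((le_sup_left : K ≤ _) hk))
          (inv_mem h1)
      have : x * k * x⁻¹ * k⁻¹ = x * (k * x⁻¹ * k⁻¹) := by group
      rw [this]; exact mul_mem h1 h3
  -- `K / K₀` is central
  obtain ⟨π, hπ⟩ : ∃ π : L →* L ⧸ K₀, π = QuotientGroup.mk' K₀ := ⟨_, rfl⟩
  have hπ1 : ∀ x, π x = 1 ↔ x ∈ K₀ := by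
    intro x; rw [hπ]; exact QuotientGroup.eq_one_iff x
  have hcen : ∀ k ∈ K, ∀ x : L, π x * π k = π k * π x := by
    intro k hk x
    have h1 : closure {a, b} ≤ (centralizer ({π k} : Set (L ⧸ K₀))).comap π := by
      rw [closure_le]
      have h3 : ∀ x : L, (∀ k ∈ K, IsPGroup p (closure {x, k * x * k⁻¹})) →
          x ∈ (centralizer ({π k} : Set (L ⧸ K₀))).comap π := by
        intro x hx
        rw [mem_comap, mem_centralizer_singleton_iff]
        have h2 := (hπ1 _).2 (key x hx k hk)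
        rw [map_mul, map_mul, map_mul, map_inv, map_inv, mul_inv_eq_one, mul_inv_eq_iff_eq_mul] at h2
        exact h2
      rintro y (rfl | rfl)
      · exact h3 _ hma
      · exact h3 _ hmb
    rw [hgen] at h1
    exact mem_centralizer_singleton_iff.1 (h1 (mem_top x))
  -- elements of `K` of `p`-power order modulo `K₀` lie in `K₀`
  have hp' : ∀ c ∈ K, ∀ k : ℕ, π c ^ p ^ k = 1 → c ∈ K₀ := by
    intro c hc k hck
    have h1 : (zpowers (π c)).comap π ≤ pCoreOf p K := by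
      apply H18.le_pCoreOf
      · intro x hx
        obtain ⟨j, hj⟩ := hx
        have h2 : π (x * (c ^ j)⁻¹) = 1 := by
          rw [map_mul, map_inv, map_zpow, ← hj]
          exact mul_inv_cancel _
        have h3 := H18.pCoreOf_le K ((hπ1 _).1 h2)
        have h4 := mul_mem h3 (zpow_mem hc j)
        rwa [inv_mul_cancel_right] at h4
      · apply H18.le_normalizer_of_conj_mem
        intro g hg x hx
        obtain ⟨j, hj⟩ := hx
        refine ⟨j, ?_⟩
        rw [map_mul, map_mul, map_inv, ← hj]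
        have h5 : Commute (π g) (π c ^ j) := Commute.zpow_right (hcen c hc g) j
        show π c ^ j = π g * (π c ^ j) * (π g)⁻¹
        rw [h5.eq, mul_inv_cancel_right]
      · rw [H18.isPGroup_iff_mem]
        intro x hx
        obtain ⟨j, hj⟩ := hx
        have h2 : π (x ^ p ^ k) = 1 := by
          rw [map_pow, ← hj]
          show (π c ^ j) ^ p ^ k = 1
          rw [← zpow_natCast, ← zpow_mul, mul_comm, zpow_mul, zpow_natCast, hck, one_zpow]
        obtain ⟨l, hl⟩ := H18.isPGroup_of_mem hK₀p ((hπ1 _).1 h2)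
        exact ⟨k + l, by rw [pow_add, pow_mul, hl]⟩
    exact h1 ⟨1, by simp⟩
  -- `z` commutes with `a` modulo `K₀`
  have hza : z * a * z⁻¹ * a⁻¹ ∈ K₀ := by
    obtain ⟨k, hk⟩ := ha
    have hcK : z * a * z⁻¹ * a⁻¹ ∈ K := by
      rw [hK, MonoidHom.mem_ker, map_mul, map_mul, map_mul, map_inv, map_inv, hz]
      simp
    apply hp' _ hcK k
    have h1 : Commute (π (z * a * z⁻¹ * a⁻¹)) (π a) := (hcen _ hcK a).symm
    have h2 : π (z * a * z⁻¹ * a⁻¹) * π a = π z * π a * (π z)⁻¹ := by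
      rw [← map_mul, inv_mul_cancel_right, map_mul, map_mul, map_inv]
    have h3 : (π (z * a * z⁻¹ * a⁻¹) * π a) ^ p ^ k = 1 := by
      rw [h2, conj_pow, ← map_pow, hk, map_one, mul_one, mul_inv_cancel]
    rw [h1.mul_pow, ← map_pow π a, hk, map_one, mul_one] at h3
    exact h3
  obtain ⟨m, hm, n, hn⟩ := exists_odd_pow_two z
  refine ⟨z ^ m, K₀, hK₀n, hK₀p, ⟨n, hn⟩, ?_, ?_⟩
  · intro h
    have h1 : φ (z ^ m) = -1 := by rw [map_pow, hz, hm.neg_one_pow]
    rw [h, map_one] at h1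
    have h3 := congrArg (fun M : Matrix.SpecialLinearGroup (Fin 2) F => (M : Matrix (Fin 2) (Fin 2) F) 0 0) h1
    simp at h3
    apply h2
    calc (2 : F) = 1 + 1 := by norm_num
      _ = -1 + 1 := by rw [← h3]
      _ = 0 := by ring
  · rw [← hπ1] at hza ⊢
    rw [map_mul, map_mul, map_mul, map_inv, map_inv, mul_inv_eq_one, mul_inv_eq_iff_eq_mul] at hza ⊢
    have h1 : Commute (π z) (π a) := hza
    rw [map_pow]
    exact (h1.pow_left m).eq

/-- generation and normalizers in `p`-groups -/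
theorem exists_gen_normalizer [Finite G] {p : ℕ} [Fact p.Prime] {E U : Subgroup G}
    (hE : IsPGroup p E) {D : Set G} (hD : ∀ e ∈ E, ∀ d ∈ D, e * d * e⁻¹ ∈ D)
    (hgen : closure (D ∩ E) = E) (hU : closure (D ∩ U) = U) (hlt : U < E) :
    ∃ d ∈ D, d ∈ E ∧ d ∉ U ∧ d ∈ normalizer (U : Set G) := by
  by_cases hn : E ≤ normalizer (U : Set G)
  · have : ∃ d ∈ D ∩ E, d ∉ U := by
      by_contra hcon
      push Not at hcon
      have h1 : closure (D ∩ E) ≤ U := by rw [closure_le]; exact hcon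
      rw [hgen] at h1
      exact hlt.not_ge h1
    obtain ⟨d, ⟨hd, hdE⟩, hdU⟩ := this
    exact ⟨d, hd, hdE, hdU, hn hdE⟩
  · have hA : E ⊓ normalizer (U : Set G) < E := by
      refine lt_of_le_of_ne inf_le_left ?_
      intro h
      exact hn (inf_eq_left.1 h)
    have h1 := lt_inf_normalizer_of_lt hE hA
    obtain ⟨n, hn1, hn2⟩ := SetLike.exists_of_lt h1
    rw [mem_inf] at hn1
    have hnU : n ∉ normalizer (U : Set G) := fun h => hn2 (mem_inf.2 ⟨hn1.1, h⟩)
    have h2 : ∃ u ∈ D ∩ U, n * u * n⁻¹ ∉ U := by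
      by_contra hcon
      push Not at hcon
      apply hnU
      rw [mem_normalizer_cj]
      apply Subgroup.eq_of_le_of_card_ge
      · show cj n U ≤ U
        rw [cj_le_iff]
        have : closure (D ∩ U) ≤ cj n⁻¹ U := by
          rw [closure_le]
          intro u hu
          rw [SetLike.mem_coe, mem_cj, inv_inv]
          exact hcon u hu
        rwa [hU] at this
      · rw [card_cj]
    obtain ⟨u, ⟨huD, huU⟩, hu⟩ := h2
    have h3 : n * u * n⁻¹ ∈ E ⊓ normalizer (U : Set G) := by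
      apply (mem_normalizer_iff.1 hn1.2 u).1
      exact mem_inf.2 ⟨hlt.le huU, le_normalizer huU⟩
    exact ⟨n * u * n⁻¹, hD n hn1.1 u huD, (mem_inf.1 h3).1, hu, (mem_inf.1 h3).2⟩

end Cfsg.Agent.H4
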