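import Cfsg.Agent.H4.InvA
import Mathlib

/-!
# Quadratic classes and unique maximal overgroups of Sylow subgroups (helper4), II
-/

set_option autoImplicit false

open Subgroup Cfsg

namespace Cfsg.Agent.H4

open H14 H2

universe u

section pair

variable {Γ : Type u} [Group Γ] [Finite Γ] {p : ℕ} [hp : Fact p.Prime] {V : Type*} [Group V] [Finite V]

/-- quadratic action -/
def QuadOn (ψ : Γ →* MulAut V) (x : Γ) : Prop := ∀ v, ψ x (ψ x v * v⁻¹) = ψ x v * v⁻¹

omit [Finite Γ] [Finite V] in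
theorem QuadOn.conj {ψ : Γ →* MulAut V} {x : Γ} (h : QuadOn ψ x) (g : Γ) :
    QuadOn ψ (g * x * g⁻¹) := by
  intro v
  obtain ⟨w, rfl⟩ : ∃ w, v = ψ g w := ⟨ψ g⁻¹ v, by rw [← MulAut.mul_apply, ← map_mul]; simp⟩
  have hg : ∀ y, ψ (g * x * g⁻¹) (ψ g y) = ψ g (ψ x y) := by
    intro y
    rw [← MulAut.mul_apply, ← map_mul, inv_mul_cancel_right, map_mul, MulAut.mul_apply]
  have h1 : ψ (g * x * g⁻¹) (ψ g w) * (ψ g w)⁻¹ = ψ g (ψ x w * w⁻¹) := by
    rw [hg, map_mul (ψ g), map_inv (ψ g)]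
  rw [h1, hg, h w]

theorem sl_involution {F : Type*} [Field F] (h2 : (2 : F) ≠ 0)
    {A : Matrix.SpecialLinearGroup (Fin 2) F} (hA : A * A = 1) (h1 : A ≠ 1) : A = -1 := by
  have hinv : A = A⁻¹ := (inv_eq_of_mul_eq_one_right hA).symm
  have h3 : (A : Matrix (Fin 2) (Fin 2) F) = (A⁻¹ : Matrix.SpecialLinearGroup (Fin 2) F) := by
    rw [← hinv]
  rw [Matrix.SpecialLinearGroup.SL2_inv_expl] at h3
  have e00 := congrFun (congrFun h3 0) 0
  have e01 := congrFun (congrFun h3 0) 1
  have e10 := congrFun (congrFun h3 1) 0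
  simp at e00 e01 e10
  have hz : ∀ x : F, x = -x → x = 0 := by
    intro x hx
    have : 2 * x = 0 := by linear_combination hx
    exact (mul_eq_zero.1 this).resolve_left h2
  have f01 := hz _ e01
  have f10 := hz _ e10
  have hdet := A.det_coe
  rw [Matrix.det_fin_two, f01, f10, ← e00] at hdet
  have h4 : ((A : Matrix (Fin 2) (Fin 2) F) 0 0 - 1) * ((A : Matrix (Fin 2) (Fin 2) F) 0 0 + 1) = 0 := by
    linear_combination hdet
  rcases mul_eq_zero.1 h4 with h5 | h5
  · exfalso
    apply h1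
    have h6 : (A : Matrix (Fin 2) (Fin 2) F) 0 0 = 1 := by linear_combination h5
    ext i j
    fin_cases i <;> fin_cases j <;> simp [f01, f10, ← e00, h6]
  · have h6 : (A : Matrix (Fin 2) (Fin 2) F) 0 0 = -1 := by linear_combination h5
    ext i j
    fin_cases i <;> fin_cases j <;> simp [f01, f10, ← e00, h6]

/-- the dichotomy for pairs of quadratic elements -/
theorem pair_dichotomy (hp2 : p ≠ 2) (hc : ∀ x y : V, x * y = y * x) (he : ∀ x : V, x ^ p = 1)
    (ψ : Γ →* MulAut V) (hψ : Function.Injective ψ) {d e : Γ} (hd : QuadOn ψ d) (hq : QuadOn ψ e) :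
    IsPGroup p (closure {d, e}) ∨
      ∃ (L : Type u) (_ : Group L) (_ : Finite L) (f : L →* Γ) (_ : Function.Injective f) (a b z : L)
        (F : Type) (_ : Field F) (φ : L →* Matrix.SpecialLinearGroup (Fin 2) F),
        (2 : F) ≠ 0 ∧ f a = d ∧ f b = e ∧ closure {a, b} = ⊤ ∧ φ z = -1 ∧ φ a * φ b ≠ φ b * φ a := by
  have hdL : d ∈ closure {d, e} := subset_closure (by simp)
  have heL : e ∈ closure {d, e} := subset_closure (by simp)
  have hgen := closure_pair_subgroup hdL heL rfl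
  rcases quad_mulAut (K := AlgebraicClosure (ZMod p)) (p := p) hc he
    (ψ.comp (closure {d, e}).subtype) hgen hd hq with h1 | h1
  · right
    haveI : CharP (AlgebraicClosure (ZMod p)) p :=
      charP_of_injective_algebraMap (algebraMap (ZMod p) (AlgebraicClosure (ZMod p))).injective p
    have h2 : (2 : AlgebraicClosure (ZMod p)) ≠ 0 := by
      have h3 : ((2 : ℕ) : AlgebraicClosure (ZMod p)) ≠ 0 := by
        rw [Ne, CharP.cast_eq_zero_iff _ p]
        intro h
        exact hp2 ((Nat.prime_dvd_prime_iff_eq hp.out Nat.prime_two).1 h)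
      exact_mod_cast h3
    obtain ⟨c, hc0, φ, hφa, hφb⟩ := h1
    have hnc := map_gens_not_comm hc0 φ hφa hφb
    haveI : Finite φ.range := Finite.of_surjective _ φ.rangeRestrict_surjective
    obtain ⟨L, hL, ⟨ε⟩⟩ := dickson_pair hp2 φ.range ⟨_, rfl⟩ ⟨_, rfl⟩
      (pow_p_of_tr_two (by rw [hφa]; norm_num)) (pow_p_of_tr_two (by rw [hφb]; norm_num)) hnc
    have hz1 : (ε.symm (-1) : L) * ε.symm (-1) = 1 := by
      rw [← map_mul]; simp
    have hz2 : (ε.symm (-1) : L) ≠ 1 := by
      intro h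
      have h3 : (-1 : Matrix.SpecialLinearGroup (Fin 2) (ZMod p)) = 1 := by
        have := congrArg ε h
        rwa [ε.apply_symm_apply, map_one] at this
      have h4 := congrArg (fun M : Matrix.SpecialLinearGroup (Fin 2) (ZMod p) =>
        (M : Matrix (Fin 2) (Fin 2) (ZMod p)) 0 0) h3
      simp at h4
      have h5 : ((2 : ℕ) : ZMod p) = 0 := by
        push_cast
        linear_combination -h4
      rw [CharP.cast_eq_zero_iff _ p] at h5
      exact hp2 ((Nat.prime_dvd_prime_iff_eq hp.out Nat.prime_two).1 h5)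
    have hz3 : ((ε.symm (-1) : L) : Matrix.SpecialLinearGroup (Fin 2) (AlgebraicClosure (ZMod p))) = -1 :=
      sl_involution h2 (congrArg Subtype.val hz1) (fun h => hz2 (Subtype.ext h))
    obtain ⟨z, hz⟩ := hL (ε.symm (-1)).2
    exact ⟨↥(Subgroup.closure {d, e}), inferInstance, inferInstance, (closure {d, e}).subtype,
      Subgroup.subtype_injective _, ⟨d, hdL⟩, ⟨e, heL⟩, z, AlgebraicClosure (ZMod p), inferInstance, φ,
      h2, rfl, rfl, hgen, hz.trans hz3, hnc⟩
  · left
    intro g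
    obtain ⟨m, hm⟩ := h1 g
    refine ⟨m, ?_⟩
    apply Subtype.ext
    apply hψ
    have h2 : ψ (g : Γ) ^ p ^ m = 1 := hm
    rw [Subgroup.coe_pow, map_pow, h2, Subgroup.coe_one, map_one]

theorem quad_pElt (hp2 : p ≠ 2) (hc : ∀ x y : V, x * y = y * x) (he : ∀ x : V, x ^ p = 1)
    (ψ : Γ →* MulAut V) (hψ : Function.Injective ψ) {d : Γ} (hd : QuadOn ψ d) :
    IsPGroup p (zpowers d) := by
  rcases pair_dichotomy hp2 hc he ψ hψ hd hd with h | h
  · apply h.to_le
    rw [zpowers_le]; exact subset_closure (by simp)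
  · obtain ⟨L, _, _, f, hf, a, b, z, F, _, φ, _, ha, hb, _, _, hnc⟩ := h
    exfalso
    apply hnc
    have : a = b := hf (ha.trans hb.symm)
    rw [this]

end pair

end Cfsg.Agent.H4
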