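import Cfsg.Agent.H4.InvB
import Mathlib

/-!
# Quadratic classes and unique maximal overgroups of Sylow subgroups (helper4), III
-/

set_option autoImplicit false
set_option linter.style.haveILetI false

open Subgroup Cfsg

namespace Cfsg.Agent.H4

open H14 H2

universe u

theorem sl_neg_one_ne {F : Type*} [Field F] (h2 : (2 : F) ≠ 0) :
    (-1 : Matrix.SpecialLinearGroup (Fin 2) F) ≠ 1 := by
  intro h1
  have h3 := congrArg (fun M : Matrix.SpecialLinearGroup (Fin 2) F => (M : Matrix (Fin 2) (Fin 2) F) 0 0) h1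
  simp at h3
  apply h2
  calc (2 : F) = 1 + 1 := by norm_num
    _ = -1 + 1 := by rw [h3]
    _ = 0 := by ring

section main

variable {Γ : Type u} [Group Γ] [Finite Γ] {p : ℕ} [hp : Fact p.Prime] {V : Type*} [Group V] [Finite V]

theorem quad_contra (hp2 : p ≠ 2) (hc : ∀ x y : V, x * y = y * x) (he : ∀ x : V, x ^ p = 1)
    (ψ : Γ →* MulAut V) (hψ : Function.Injective ψ) (T : Sylow p Γ) (H : Subgroup Γ)
    (hTH : (T : Subgroup Γ) ≤ H) (hH : H ≠ ⊤)
    (hmax : ∀ M : Subgroup Γ, (T : Subgroup Γ) ≤ M → M ≠ ⊤ → M ≤ H)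
    (hodd : Odd (Nat.card H)) {a : Γ} (hquad : QuadOn ψ a) (ha : a ∉ pCore p Γ) : False := by
  classical
  have hHcard : ∀ g, Nat.card (cj g H) = Nat.card H := fun g => card_cj g H
  have conjmax : ∀ (g : Γ) (M : Subgroup Γ), cj g (T : Subgroup Γ) ≤ M → M ≠ ⊤ → M ≤ cj g H := by
    intro g M h1 h2
    rw [le_cj_iff]
    apply hmax
    · exact cj_le_iff.1 h1
    · intro h; apply h2
      have := congrArg (cj g) h
      rwa [cj_cj_inv, cj_top] at this
  obtain ⟨D, hD⟩ : ∃ D : Set Γ, D = {d | ∃ g, d = g * a * g⁻¹} := ⟨_, rfl⟩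
  have haD : a ∈ D := by rw [hD]; exact ⟨1, by simp⟩
  have hDc : ∀ g, ∀ d ∈ D, g * d * g⁻¹ ∈ D := by
    intro g d hd
    rw [hD] at hd ⊢
    obtain ⟨x, rfl⟩ := hd
    exact ⟨g * x, by group⟩
  have hDq : ∀ d ∈ D, QuadOn ψ d := by
    intro d hd
    rw [hD] at hd
    obtain ⟨x, rfl⟩ := hd
    exact hquad.conj x
  have hpsub : ∀ X : Subgroup Γ, IsPGroup p X → ∃ g, X ≤ cj g H := by
    intro X hX
    obtain ⟨x, _, hx⟩ := (Sylow.isSylIn_top T).exists_cj_le (le_top : X ≤ ⊤) hX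
    exact ⟨x⁻¹, by rw [le_cj_iff, inv_inv]; exact hx.trans hTH⟩
  -- pairs inside conjugates of `H`
  have hoddp : ∀ g, ∀ d ∈ D, ∀ e ∈ D, d ∈ cj g H → e ∈ cj g H → IsPGroup p (closure {d, e}) := by
    intro g d hd e heD hdH heH
    rcases pair_dichotomy hp2 hc he ψ hψ (hDq d hd) (hDq e heD) with h | h
    · exact h
    · exfalso
      obtain ⟨L, _, _, f, hf, a', b', z, F, _, φ, h2, ha', hb', hgen, hz, _⟩ := h
      have h3 : f z ∈ cj g H := by
        have h4 : (⊤ : Subgroup L) ≤ (cj g H).comap f := by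
          rw [← hgen, closure_le]
          rintro x (rfl | rfl)
          · show f x ∈ cj g H
            rw [ha']; exact hdH
          · show f x ∈ cj g H
            rw [hb']; exact heH
        exact h4 (mem_top z)
      have h4 : orderOf z ∣ Nat.card H := by
        rw [← orderOf_injective f hf z, ← hHcard g]
        exact Subgroup.orderOf_dvd_natCard _ h3
      have h5 : Odd (orderOf z) := Odd.of_dvd_nat hodd h4
      have h6 : φ z ^ orderOf z = 1 := by rw [← map_pow, pow_orderOf_eq_one, map_one]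
      rw [hz, h5.neg_one_pow] at h6
      exact sl_neg_one_ne h2 h6
  have hcore : ∀ g, ∀ d ∈ D, d ∈ cj g H → d ∈ pCoreOf p (cj g H) := by
    intro g d hd hdH
    apply mem_pCoreOf_of_pairs hdH
    intro n hn
    exact hoddp g d hd _ (hDc n d hd) hdH (mul_mem (mul_mem hn hdH) (inv_mem hn))
  have hDH : ∀ g, ∃ d ∈ D, d ∈ cj g H := by
    intro g
    obtain ⟨x, hx⟩ := hpsub _ (quad_pElt hp2 hc he ψ hψ hquad)
    refine ⟨(g * x⁻¹) * a * (g * x⁻¹)⁻¹, hDc _ _ haD, ?_⟩
    have h1 : a ∈ cj x H := hx (mem_zpowers a)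
    have h2 : cj g H = cj (g * x⁻¹) (cj x H) := by rw [cj_cj]; simp
    rw [h2, conj_mem_cj]; exact h1
  have hnopc : ∀ N : Subgroup Γ, N.Normal → IsPGroup p N → ∀ d ∈ D, d ∉ N := by
    intro N hN hNp d hd hdN
    rw [hD] at hd
    obtain ⟨x, rfl⟩ := hd
    have h1 := hN.conj_mem _ hdN x⁻¹
    have h2 : x⁻¹ * (x * a * x⁻¹) * x⁻¹⁻¹ = a := by group
    rw [h2] at h1
    exact ha (H18.le_pCore hN hNp h1)
  have hHn : normalizer (H : Set Γ) ≠ ⊤ := by
    intro h
    obtain ⟨d, hd, hdH⟩ := hDH 1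
    have h1 := hcore 1 d hd hdH
    rw [cj_one] at h1
    haveI : H.Normal := Subgroup.normalizer_eq_top_iff.1 h
    exact hnopc _ inferInstance (H18.isPGroup_pCore p Γ) d hd (H18.pCoreOf_le_pCore_of_normal H h1)
  have hNH : ∀ g, normalizer ((cj g H : Subgroup Γ) : Set Γ) ≤ cj g H := by
    intro g
    apply conjmax g
    · exact (cj_mono hTH).trans le_normalizer
    · intro h
      apply hHn
      rw [normalizer_cj] at h
      have := congrArg (cj g⁻¹) h
      rwa [cj_inv_cj, cj_top] at this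
  -- the maximal pair
  obtain ⟨f, hf⟩ : ∃ f : Γ × Γ → ℕ,
      ∀ q, f q = (D ∩ (cj q.1 H : Set Γ) ∩ (cj q.2 H : Set Γ)).ncard := ⟨_, fun _ => rfl⟩
  obtain ⟨⟨g₁, g₂⟩, hne, hmaxf⟩ := Set.exists_max_image {q : Γ × Γ | cj q.1 H ≠ cj q.2 H} f
    (Set.toFinite _) (by
      have : ∃ g, g ∉ normalizer (H : Set Γ) := by
        by_contra hcon
        push Not at hcon
        exact hHn (eq_top_iff.2 fun g _ => hcon g)
      obtain ⟨g, hg⟩ := this
      refine ⟨(g, 1), ?_⟩
      show cj g H ≠ cj 1 H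
      rw [cj_one]
      intro h
      exact hg (mem_normalizer_cj.2 h))
  have hne' : cj g₁ H ≠ cj g₂ H := hne
  have hmaxf' : ∀ x y : Γ, ∀ d : Γ, d ∈ D → d ∉ D ∩ (cj g₁ H : Set Γ) ∩ (cj g₂ H : Set Γ) →
      d ∈ cj x H → d ∈ cj y H →
      D ∩ (cj g₁ H : Set Γ) ∩ (cj g₂ H : Set Γ) ⊆ D ∩ (cj x H : Set Γ) ∩ (cj y H : Set Γ) →
      cj x H = cj y H := by
    intro x y d hd hdn hdx hdy hsub
    by_contra hcon
    have h1 := hmaxf (x, y) hcon
    rw [hf, hf] at h1
    have h2 : D ∩ (cj g₁ H : Set Γ) ∩ (cj g₂ H : Set Γ) ⊂ D ∩ (cj x H : Set Γ) ∩ (cj y H : Set Γ) :=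
      ⟨hsub, fun h => hdn (h ⟨⟨hd, hdx⟩, hdy⟩)⟩
    exact absurd (Set.ncard_lt_ncard h2 (Set.toFinite _)) (not_lt.2 h1)
  obtain ⟨U, hU⟩ : ∃ U : Subgroup Γ, U = closure (D ∩ (cj g₁ H : Set Γ) ∩ (cj g₂ H : Set Γ)) := ⟨_, rfl⟩
  have hUp : IsPGroup p U := by
    apply (H18.isPGroup_pCoreOf (p := p) (cj g₁ H)).to_le
    rw [hU, closure_le]
    rintro x ⟨⟨hx1, hx2⟩, _⟩
    exact hcore g₁ x hx1 hx2
  have hDU : D ∩ (cj g₁ H : Set Γ) ∩ (cj g₂ H : Set Γ) ⊆ U := by
    rw [hU]; exact subset_closure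
  have hcard : ∀ g, (D ∩ (cj g H : Set Γ)).ncard = (D ∩ (H : Set Γ)).ncard := by
    intro g
    have h1 : D ∩ (cj g H : Set Γ) = (fun x => g * x * g⁻¹) '' (D ∩ (H : Set Γ)) := by
      ext x
      constructor
      · rintro ⟨hx1, hx2⟩
        refine ⟨g⁻¹ * x * g, ⟨?_, mem_cj.1 hx2⟩, by group⟩
        have := hDc g⁻¹ x hx1
        rwa [inv_inv] at this
      · rintro ⟨y, ⟨hy1, hy2⟩, rfl⟩
        exact ⟨hDc g y hy1, conj_mem_cj.2 hy2⟩
    rw [h1]
    apply Set.ncard_image_of_injective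
    intro x y hxy
    simpa using hxy
  -- elements outside
  have hout : ∀ g g' : Γ, cj g H ≠ cj g' H →
      U = closure (D ∩ (cj g H : Set Γ) ∩ (cj g' H : Set Γ)) →
      ∃ d ∈ D, d ∈ cj g H ∧ d ∉ cj g' H ∧ d ∈ normalizer (U : Set Γ) := by
    intro g g' hgg hU'
    obtain ⟨E, hE⟩ : ∃ E : Subgroup Γ, E = closure (D ∩ (cj g H : Set Γ)) := ⟨_, rfl⟩
    have hEle : E ≤ pCoreOf p (cj g H) := by
      rw [hE, closure_le]
      rintro x ⟨hx1, hx2⟩
      exact hcore g x hx1 hx2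
    have hEp : IsPGroup p E := (H18.isPGroup_pCoreOf (p := p) (cj g H)).to_le hEle
    have hEH : E ≤ cj g H := hEle.trans (H18.pCoreOf_le _)
    have hDE : D ∩ (cj g H : Set Γ) ⊆ E := by rw [hE]; exact subset_closure
    have hEg : closure (D ∩ (E : Set Γ)) = E := by
      apply le_antisymm
      · rw [closure_le]; exact Set.inter_subset_right
      · conv_lhs => rw [hE]
        apply Subgroup.closure_mono
        intro x hx
        exact ⟨hx.1, hDE hx⟩
    have hUg : closure (D ∩ (U : Set Γ)) = U := by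
      apply le_antisymm
      · rw [closure_le]; exact Set.inter_subset_right
      · conv_lhs => rw [hU]
        apply Subgroup.closure_mono
        intro x hx
        exact ⟨hx.1.1, hDU hx⟩
    have hUE : U ≤ E := by
      rw [hU', closure_le]
      intro x hx
      exact hDE hx.1
    have hUne : U ≠ E := by
      intro hUE'
      have h1 : D ∩ (cj g H : Set Γ) ⊆ D ∩ (cj g' H : Set Γ) := by
        intro x hx
        refine ⟨hx.1, ?_⟩
        have h2 : x ∈ U := by rw [hUE']; exact hDE hx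
        rw [hU'] at h2
        have h3 : closure (D ∩ (cj g H : Set Γ) ∩ (cj g' H : Set Γ)) ≤ cj g' H := by
          rw [closure_le]; exact fun y hy => hy.2
        exact h3 h2
      have h2 : D ∩ (cj g H : Set Γ) = D ∩ (cj g' H : Set Γ) :=
        Set.eq_of_subset_of_ncard_le h1 (by rw [hcard, hcard]) (Set.toFinite _)
      have h3 : ∀ y, (∀ x ∈ cj y H, ∀ d ∈ D ∩ (cj g H : Set Γ), x * d * x⁻¹ ∈ D ∩ (cj g H : Set Γ)) →
          cj y H ≤ normalizer (E : Set Γ) := by
        intro y hy x hx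
        rw [mem_normalizer_cj]
        apply Subgroup.eq_of_le_of_card_ge
        · show cj x E ≤ E
          rw [cj_le_iff, hE, closure_le]
          intro d hd
          rw [SetLike.mem_coe, mem_cj, inv_inv]
          exact subset_closure (hy x hx d hd)
        · rw [card_cj]
      have h4 : cj g H ≤ normalizer (E : Set Γ) := by
        apply h3
        rintro x hx d ⟨hd1, hd2⟩
        exact ⟨hDc x d hd1, mul_mem (mul_mem hx hd2) (inv_mem hx)⟩
      have h5 : cj g' H ≤ normalizer (E : Set Γ) := by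
        apply h3
        rw [h2]
        rintro x hx d ⟨hd1, hd2⟩
        exact ⟨hDc x d hd1, mul_mem (mul_mem hx hd2) (inv_mem hx)⟩
      by_cases h6 : normalizer (E : Set Γ) = ⊤
      · haveI : E.Normal := Subgroup.normalizer_eq_top_iff.1 h6
        obtain ⟨d, hd, hdH⟩ := hDH g
        exact hnopc E inferInstance hEp d hd (hDE ⟨hd, hdH⟩)
      · have h7 := conjmax g _ ((cj_mono hTH).trans h4) h6
        apply hgg
        exact (Subgroup.eq_of_le_of_card_ge (h5.trans h7) (by rw [hHcard, hHcard])).symm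
    obtain ⟨d, hd1, hd2, hd3, hd4⟩ := exists_gen_normalizer hEp (D := D)
      (fun e _ d hd => hDc e d hd) hEg hUg (lt_of_le_of_ne hUE hUne)
    refine ⟨d, hd1, hEH hd2, ?_, hd4⟩
    intro hd5
    apply hd3
    rw [hU']
    exact subset_closure ⟨⟨hd1, hEH hd2⟩, hd5⟩
  obtain ⟨d₁, hd₁, hd₁H, hd₁n, hd₁N⟩ := hout g₁ g₂ hne' hU
  obtain ⟨d₂, hd₂, hd₂H, hd₂n, hd₂N⟩ := hout g₂ g₁ (Ne.symm hne') (by
    rw [hU]; congr 1; ext x; simp only [Set.mem_inter_iff]; tauto)
  obtain ⟨N, hN⟩ : ∃ N : Subgroup Γ, N = normalizer (U : Set Γ) := ⟨_, rfl⟩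
  rw [← hN] at hd₁N hd₂N
  have hUN : U ≤ N := by rw [hN]; exact le_normalizer
  have hnp : ¬ IsPGroup p (closure (D ∩ (N : Set Γ))) := by
    intro h
    obtain ⟨x, hx⟩ := hpsub _ h
    have hsub : ∀ d ∈ D, d ∈ N → d ∈ cj x H := fun d hd hdN => hx (subset_closure ⟨hd, hdN⟩)
    have e1 : cj x H = cj g₁ H := by
      apply hmaxf' x g₁ d₁ hd₁ (fun h => hd₁n h.2) (hsub _ hd₁ hd₁N) hd₁H
      intro y hy
      exact ⟨⟨hy.1.1, hsub y hy.1.1 (hUN (hDU hy))⟩, hy.1.2⟩
    have e2 : cj x H = cj g₂ H := by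
      apply hmaxf' x g₂ d₂ hd₂ (fun h => hd₂n h.1.2) (hsub _ hd₂ hd₂N) hd₂H
      intro y hy
      exact ⟨⟨hy.1.1, hsub y hy.1.1 (hUN (hDU hy))⟩, hy.2⟩
    exact hne' (e1.symm.trans e2)
  -- a bad pair
  obtain ⟨⟨d, e⟩, ⟨hdD, heD, hbad⟩, hmin⟩ := Set.exists_min_image
    {q : Γ × Γ | q.1 ∈ D ∩ (N : Set Γ) ∧ q.2 ∈ D ∩ (N : Set Γ) ∧ ¬ IsPGroup p (closure {q.1, q.2})}
    (fun q => Nat.card (closure {q.1, q.2})) (Set.toFinite _) (by
      by_contra hcon
      rw [Set.not_nonempty_iff_eq_empty, Set.eq_empty_iff_forall_notMem] at hcon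
      apply hnp
      apply (H18.isPGroup_pCoreOf (p := p) N).to_le
      rw [closure_le]
      rintro x ⟨hx1, hx2⟩
      apply mem_pCoreOf_of_pairs hx2
      intro n hn
      by_contra hc'
      exact hcon (x, n * x * n⁻¹) ⟨⟨hx1, hx2⟩, ⟨hDc n x hx1, mul_mem (mul_mem hn hx2) (inv_mem hn)⟩, hc'⟩)
  have hdD' : d ∈ D ∩ (N : Set Γ) := hdD
  have heD' : e ∈ D ∩ (N : Set Γ) := heD
  have hbad' : ¬ IsPGroup p (closure {d, e}) := hbad
  obtain ⟨L, _, _, F, hF, a', b', z, Fd, _, φ, h2, ha', hb', hgen, hz, hnc⟩ :=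
    (pair_dichotomy hp2 hc he ψ hψ (hDq d hdD'.1) (hDq e heD'.1)).resolve_left hbad'
  have hFr : ∀ x : L, F x ∈ closure {d, e} := by
    intro x
    have h4 : (⊤ : Subgroup L) ≤ (closure {d, e}).comap F := by
      rw [← hgen, closure_le]
      rintro y (rfl | rfl)
      · show F y ∈ closure {d, e}
        rw [ha']; exact subset_closure (by simp)
      · show F y ∈ closure {d, e}
        rw [hb']; exact subset_closure (by simp)
    exact h4 (mem_top x)
  have hLN : closure {d, e} ≤ N := by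
    rw [closure_le]
    rintro y (rfl | rfl)
    · exact hdD'.2
    · exact heD'.2
  have hsmall : ∀ (y y' : L) (w : Γ), F y = w → w ∈ D ∩ (N : Set Γ) → φ y * φ y' ≠ φ y' * φ y →
      ∀ k ∈ φ.ker, IsPGroup p (closure {y, k * y * k⁻¹}) := by
    intro y y' w hyw hw hnc' k hk
    have hmem : F k * w * (F k)⁻¹ ∈ D ∩ (N : Set Γ) :=
      ⟨hDc _ _ hw.1, mul_mem (mul_mem (hLN (hFr k)) hw.2) (inv_mem (hLN (hFr k)))⟩
    have hmap : (closure {y, k * y * k⁻¹}).map F = closure {w, F k * w * (F k)⁻¹} := by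
      rw [MonoidHom.map_closure]
      congr 1
      rw [Set.image_pair, map_mul, map_mul, map_inv, hyw]
    have hlt : Nat.card (closure {w, F k * w * (F k)⁻¹}) < Nat.card (closure {d, e}) := by
      have h5 : closure {w, F k * w * (F k)⁻¹} ≤ closure {d, e} := by
        rw [← hmap, Subgroup.map_le_iff_le_comap]
        intro x _
        exact hFr x
      have h6 : closure {w, F k * w * (F k)⁻¹} ≠ closure {d, e} := by
        intro h7
        apply hnc'
        have h8 : F y' ∈ (closure {y, k * y * k⁻¹}).map F := by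
          rw [hmap, h7]; exact hFr y'
        have h9 : y' ∈ closure {y, k * y * k⁻¹} := by
          obtain ⟨x, hx, hx2⟩ := h8
          rwa [← hF hx2]
        have h10 : closure {y, k * y * k⁻¹} ≤ (centralizer ({φ y} : Set _)).comap φ := by
          rw [closure_le]
          rintro x (rfl | rfl)
          · rw [SetLike.mem_coe, mem_comap, mem_centralizer_singleton_iff]
          · rw [SetLike.mem_coe, mem_comap, mem_centralizer_singleton_iff, map_mul, map_mul, map_inv,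
              MonoidHom.mem_ker.1 hk]
            simp
        have h11 := h10 h9
        rw [mem_comap, mem_centralizer_singleton_iff] at h11
        exact h11.symm
      rw [lt_iff_not_ge]
      intro h7
      exact h6 (Subgroup.eq_of_le_of_card_ge h5 h7)
    have hX : IsPGroup p (closure {w, F k * w * (F k)⁻¹}) := by
      by_contra hcon
      have := hmin (w, F k * w * (F k)⁻¹) ⟨hw, hmem, hcon⟩
      exact absurd hlt (not_lt.2 this)
    apply (hX.comap_of_injective F hF).to_le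
    rw [← Subgroup.map_le_iff_le_comap, hmap]
  have hpa : ∀ (y : L) (w : Γ), F y = w → w ∈ D → ∃ k : ℕ, y ^ p ^ k = 1 := by
    intro y w hyw hw
    obtain ⟨k, hk⟩ := H18.isPGroup_of_mem (quad_pElt hp2 hc he ψ hψ (hDq w hw)) (mem_zpowers w)
    refine ⟨k, hF ?_⟩
    rw [map_pow, hyw, hk, map_one]
  obtain ⟨i, K₀, hK₀n, hK₀p, ⟨n, hn⟩, hi1, hcomm⟩ := exists_two_elt (p := p) h2 hgen φ hz
    (hpa a' d ha' hdD'.1) (hpa b' e hb' heD'.1)
    (hsmall a' b' d ha' hdD' hnc) (hsmall b' a' e hb' heD' (Ne.symm hnc))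
  -- the `p`-group
  have hK₀' : IsPGroup p (K₀.map F) := hK₀p.map F
  have hdmem : d ∈ closure {d, e} := subset_closure (by simp)
  have hnorm : ∀ x : L, F x ∈ normalizer ((K₀.map F : Subgroup Γ) : Set Γ) := by
    intro x
    rw [mem_normalizer_cj]
    apply Subgroup.eq_of_le_of_card_ge
    · show cj (F x) (K₀.map F) ≤ K₀.map F
      rintro _ ⟨_, ⟨y, hy, rfl⟩, rfl⟩
      refine ⟨x * y * x⁻¹, hK₀n.conj_mem y hy x, ?_⟩
      simp
    · rw [card_cj]
  have hRp : IsPGroup p (zpowers d ⊔ K₀.map F : Subgroup Γ) := by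
    apply H18.isPGroup_sup_of_le_normalizer (quad_pElt hp2 hc he ψ hψ (hDq d hdD'.1)) hK₀'
    rw [zpowers_le, ← ha']
    exact hnorm a'
  have hRN : (zpowers d ⊔ K₀.map F : Subgroup Γ) ≤ normalizer (U : Set Γ) := by
    rw [← hN]
    apply sup_le
    · rw [zpowers_le]; exact hdD'.2
    · rintro _ ⟨y, _, rfl⟩
      exact hLN (hFr y)
  have hWp : IsPGroup p ((zpowers d ⊔ K₀.map F) ⊔ U : Subgroup Γ) :=
    H18.isPGroup_sup_of_le_normalizer hRp hUp hRN
  have hWi : cj (F i) ((zpowers d ⊔ K₀.map F) ⊔ U) = (zpowers d ⊔ K₀.map F) ⊔ U := by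
    apply Subgroup.eq_of_le_of_card_ge
    · show cj (F i) ((zpowers d ⊔ K₀.map F) ⊔ U) ≤ _
      rw [cj_sup, cj_sup]
      apply sup_le
      · apply sup_le
        · rw [cj_le_iff, zpowers_le, mem_cj, inv_inv]
          have h3 : F i * d * (F i)⁻¹ = F (i * a' * i⁻¹ * a'⁻¹) * d := by
            rw [map_mul, map_mul, map_mul, map_inv, map_inv, ha']; group
          rw [h3]
          apply mul_mem
          · exact (le_sup_left : zpowers d ⊔ K₀.map F ≤ _)
              ((le_sup_right : K₀.map F ≤ _) ⟨_, hcomm, rfl⟩)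
          · exact (le_sup_left : zpowers d ⊔ K₀.map F ≤ _)
              ((le_sup_left : zpowers d ≤ _) (mem_zpowers d))
        · rw [mem_normalizer_cj.1 (hnorm i)]
          exact le_sup_right.trans le_sup_left
      · have h3 : F i ∈ normalizer (U : Set Γ) := by rw [← hN]; exact hLN (hFr i)
        rw [mem_normalizer_cj.1 h3]
        exact le_sup_right
    · rw [card_cj]
  obtain ⟨x, hx⟩ := hpsub _ hWp
  have hx' : (zpowers d ⊔ K₀.map F) ⊔ U ≤ cj (F i * x) H := by
    rw [← cj_cj, ← hWi]; exact cj_mono hx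
  have hdW : d ∈ (zpowers d ⊔ K₀.map F) ⊔ U :=
    (le_sup_left : zpowers d ⊔ K₀.map F ≤ _) ((le_sup_left : zpowers d ≤ _) (mem_zpowers d))
  have hdU : d ∉ U := by
    intro hdU
    apply hbad'
    have h3 : IsPGroup p (zpowers e ⊔ U : Subgroup Γ) := by
      apply H18.isPGroup_sup_of_le_normalizer (quad_pElt hp2 hc he ψ hψ (hDq e heD'.1)) hUp
      rw [zpowers_le, ← hN]; exact heD'.2
    apply h3.to_le
    rw [closure_le]
    rintro y (rfl | rfl)
    · exact (le_sup_right : U ≤ _) hdU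
    · exact (le_sup_left : zpowers y ≤ _) (mem_zpowers y)
  have hfin : cj x H = cj (F i * x) H := by
    apply hmaxf' x (F i * x) d hdD'.1 (fun h => hdU (hDU h)) (hx hdW) (hx' hdW)
    intro y hy
    have h3 : y ∈ (zpowers d ⊔ K₀.map F) ⊔ U := (le_sup_right : U ≤ _) (hDU hy)
    exact ⟨⟨hy.1.1, hx h3⟩, hx' h3⟩
  have hiH : F i ∈ cj x H := by
    apply hNH x
    rw [mem_normalizer_cj, cj_cj, ← hfin]
  have h4 : orderOf i ∣ Nat.card H := by
    rw [← orderOf_injective F hF i, ← hHcard x]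
    exact Subgroup.orderOf_dvd_natCard _ hiH
  rw [hn] at h4
  have h5 : n ≠ 0 := by
    rintro rfl
    rw [pow_zero] at hn
    exact hi1 (orderOf_eq_one_iff.1 hn)
  have h6 : 2 ∣ Nat.card H := (dvd_pow_self 2 h5).trans h4
  exact (Nat.not_even_iff_odd.2 hodd) (even_iff_two_dvd.2 h6)

end main

end Cfsg.Agent.H4
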