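import Cfsg.Agent.H4.InvC
import Cfsg.Agent.H2.ZJ2
import Cfsg.Agent.H2.StabNormal
import Cfsg.Agent.H10.PLoc
import Mathlib

/-!
# Inverted elements (helper4), IV: groups in which no `q`-element is inverted
-/

set_option autoImplicit false
set_option linter.style.haveILetI false

open Subgroup Cfsg

namespace Cfsg.Agent.H4

open H14 H2

universe u

variable {G : Type u} [Group G]

/-- no nonidentity `q`-element of `H` is inverted by an element of `H` -/
def NIOf (q : ℕ) (H : Subgroup G) : Prop :=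
  ∀ x ∈ H, (∃ k : ℕ, x ^ q ^ k = 1) → x ≠ 1 → ∀ g ∈ H, g * x * g⁻¹ ≠ x⁻¹

theorem NIOf.mono {q : ℕ} {H K : Subgroup G} (h : NIOf q K) (hHK : H ≤ K) : NIOf q H :=
  fun x hx hk hx1 g hg => h x (hHK hx) hk hx1 g (hHK hg)

theorem NIOf.comap {q : ℕ} {G' : Type*} [Group G'] {f : G' →* G} (hf : Function.Injective f)
    {H : Subgroup G} (h : NIOf q H) : NIOf q (H.comap f) := by
  rintro x hx ⟨k, hk⟩ hx1 g hg heq
  refine h (f x) hx ⟨k, by rw [← map_pow, hk, map_one]⟩ ?_ (f g) hg ?_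
  · intro h1
    exact hx1 (hf (by rw [h1, map_one]))
  · rw [← map_inv, ← map_mul, ← map_mul, heq, map_inv]

theorem NIOf.map_inj {q : ℕ} {G' : Type*} [Group G'] {f : G →* G'} (hf : Function.Injective f)
    {H : Subgroup G} (h : NIOf q H) : NIOf q (H.map f) := by
  rintro _ ⟨x, hx, rfl⟩ ⟨k, hk⟩ hx1 _ ⟨g, hg, rfl⟩ heq
  refine h x hx ⟨k, hf (by rw [map_pow, hk, map_one])⟩ ?_ g hg ?_
  · rintro rfl
    exact hx1 (map_one f)
  · apply hf
    rw [map_mul, map_mul, map_inv, map_inv]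
    exact heq

theorem niOf_iff_top {q : ℕ} {H : Subgroup G} : NIOf q H ↔ NIOf q (⊤ : Subgroup H) := by
  constructor
  · intro h
    have := h.comap H.subtype_injective
    apply this.mono
    intro x _
    exact x.2
  · intro h
    have := h.map_inj H.subtype_injective
    rwa [← MonoidHom.range_eq_map, Subgroup.range_subtype] at this

/-- an inverting element may be replaced by an odd power -/
theorem inv_pow_odd {x g : G} (h : g * x * g⁻¹ = x⁻¹) {m : ℕ} (hm : Odd m) :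
    g ^ m * x * (g ^ m)⁻¹ = x⁻¹ := by
  obtain ⟨k, rfl⟩ := hm
  have h2 : ∀ k : ℕ, g ^ (2 * k) * x * (g ^ (2 * k))⁻¹ = x := by
    intro k
    induction k with
    | zero => simp
    | succ k ih =>
      have e1 : g ^ (2 * (k + 1)) = g ^ 2 * g ^ (2 * k) := by rw [← pow_add]; congr 1; ring
      have e2 : g ^ 2 * x * (g ^ 2)⁻¹ = x := by
        have : g ^ 2 * x * (g ^ 2)⁻¹ = g * (g * x * g⁻¹) * g⁻¹ := by rw [pow_two]; group
        rw [this, h]
        have h3 : g * x⁻¹ * g⁻¹ = (g * x * g⁻¹)⁻¹ := by group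
        rw [h3, h, inv_inv]
      rw [e1]
      calc g ^ 2 * g ^ (2 * k) * x * (g ^ 2 * g ^ (2 * k))⁻¹
          = g ^ 2 * (g ^ (2 * k) * x * (g ^ (2 * k))⁻¹) * (g ^ 2)⁻¹ := by group
        _ = x := by rw [ih, e2]
  have e1 : g ^ (2 * k + 1) = g * g ^ (2 * k) := by rw [pow_succ']
  rw [e1]
  calc g * g ^ (2 * k) * x * (g * g ^ (2 * k))⁻¹
      = g * (g ^ (2 * k) * x * (g ^ (2 * k))⁻¹) * g⁻¹ := by group
    _ = x⁻¹ := by rw [h2, h]

/-- `2`-elements centralize the `q`-subgroups which they normalize -/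
theorem NIOf.centralize {q : ℕ} {H R : Subgroup G} (h : NIOf q H) (hRH : R ≤ H) (hR : IsPGroup q R) :
    ∀ (n : ℕ) (i : G), i ∈ H → i ^ 2 ^ n = 1 → (∀ r ∈ R, i * r * i⁻¹ ∈ R) →
      ∀ r ∈ R, i * r * i⁻¹ = r := by
  intro n
  induction n with
  | zero =>
    intro i _ hi _ r _
    rw [pow_zero, pow_one] at hi
    rw [hi]; simp
  | succ n ih =>
    intro i hiH hi hn r hr
    have h2 : ∀ r ∈ R, i ^ 2 * r * (i ^ 2)⁻¹ = r := by
      apply ih (i ^ 2) (pow_mem hiH 2)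
      · rw [← pow_mul, ← pow_succ']; exact hi
      · intro r hr
        have : i ^ 2 * r * (i ^ 2)⁻¹ = i * (i * r * i⁻¹) * i⁻¹ := by rw [pow_two]; group
        rw [this]; exact hn _ (hn r hr)
    by_contra hne
    obtain ⟨y, hy⟩ : ∃ y, y = r⁻¹ * (i * r * i⁻¹) := ⟨_, rfl⟩
    have hyR : y ∈ R := by rw [hy]; exact mul_mem (inv_mem hr) (hn r hr)
    have hy1 : y ≠ 1 := by
      intro h1
      apply hne
      rw [hy, inv_mul_eq_one] at h1
      exact h1.symm
    refine h y (hRH hyR) (H18.isPGroup_of_mem hR hyR) hy1 i hiH ?_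
    have h3 := h2 r hr
    calc i * y * i⁻¹ = (i * r * i⁻¹)⁻¹ * (i ^ 2 * r * (i ^ 2)⁻¹) := by rw [hy, pow_two]; group
      _ = y⁻¹ := by rw [h3, hy]; group

theorem eq_one_of_inv_self {q : ℕ} [hq : Fact q.Prime] (hq2 : q ≠ 2) {x : G} {k : ℕ} (hk : x ^ q ^ k = 1)
    (h : x = x⁻¹) : x = 1 := by
  have h1 : x ^ 2 = 1 := by rw [pow_two]; nth_rw 1 [h]; simp
  have h2 := orderOf_dvd_of_pow_eq_one hk
  have h3 := orderOf_dvd_of_pow_eq_one h1
  have h4 : Nat.Coprime (q ^ k) 2 := by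
    apply Nat.Coprime.pow_left
    exact (Nat.coprime_primes hq.out Nat.prime_two).2 hq2
  have h5 : orderOf x ∣ 1 := by
    rw [← Nat.Coprime.gcd_eq_one h4]; exact Nat.dvd_gcd h2 h3
  exact orderOf_eq_one_iff.1 (Nat.dvd_one.1 h5)

theorem relIndex_map_dvd' {G' : Type*} [Group G'] (f : G →* G') {T X : Subgroup G} (hTX : T ≤ X) :
    (T.map f).relIndex (X.map f) ∣ T.relIndex X := by
  have h1 : ((T.subgroupOf X).map (f.subgroupMap X)) = (T.map f).subgroupOf (X.map f) := by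
    ext ⟨y, hy⟩
    rw [Subgroup.mem_subgroupOf]
    constructor
    · rintro ⟨⟨x, hx⟩, hxT, hxy⟩
      exact ⟨x, hxT, congrArg Subtype.val hxy⟩
    · rintro ⟨x, hx, hxy⟩
      exact ⟨⟨x, hTX hx⟩, hx, Subtype.ext hxy⟩
  rw [Subgroup.relIndex, Subgroup.relIndex, ← h1]
  exact Subgroup.index_map_dvd _ (f.subgroupMap_surjective X)

theorem isSylIn_map_hom {q : ℕ} {G' : Type*} [Group G'] (f : G →* G') {T X : Subgroup G}
    (h : IsSylIn q T X) : IsSylIn q (T.map f) (X.map f) :=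
  ⟨Subgroup.map_mono h.le, h.pgroup.map f, fun hd => h.ndvd (hd.trans (relIndex_map_dvd' f h.le))⟩

section fin

variable [Finite G] {q : ℕ} [hq : Fact q.Prime]

/-- passing to quotients -/
theorem NIOf.map (hq2 : q ≠ 2) {G' : Type*} [Group G'] [Finite G'] (f : G →* G') {H : Subgroup G}
    (h : NIOf q H) : NIOf q (H.map f) := by
  rintro y' ⟨y, hy, rfl⟩ ⟨k, hk⟩ hy1 g' ⟨g, hg, rfl⟩ heq
  obtain ⟨X, hX⟩ : ∃ X : Subgroup G, X = (zpowers (f y)).comap f ⊓ H := ⟨_, rfl⟩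
  have hXH : X ≤ H := by rw [hX]; exact inf_le_right
  have hXmem : ∀ x, x ∈ X ↔ f x ∈ zpowers (f y) ∧ x ∈ H := by
    intro x; rw [hX]; exact Subgroup.mem_inf
  -- a Sylow subgroup of `X` maps onto
  obtain ⟨T, hT⟩ := exists_isSylIn (p := q) X
  have hmap : T.map f = zpowers (f y) := by
    have h1 : IsSylIn q (T.map f) (X.map f) := isSylIn_map_hom f hT
    have h2 : X.map f = zpowers (f y) := by
      apply le_antisymm
      · rw [hX]
        exact (Subgroup.map_mono inf_le_left).trans (Subgroup.map_comap_le _ _)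
      · rw [zpowers_le]
        exact ⟨y, (hXmem y).2 ⟨mem_zpowers _, hy⟩, rfl⟩
    rw [h2] at h1
    have h3 : IsPGroup q (zpowers (f y)) := by
      rw [H18.isPGroup_iff_mem]
      rintro _ ⟨n, rfl⟩
      refine ⟨k, ?_⟩
      show (f y ^ n) ^ q ^ k = 1
      rw [← zpow_natCast, ← zpow_mul, mul_comm, zpow_mul, zpow_natCast, hk, one_zpow]
    exact (h1.eq_of_le h1.le le_rfl h3).symm
  have hgX : zpowers g ≤ normalizer (X : Set G) := by
    rw [zpowers_le, mem_normalizer_cj]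
    apply Subgroup.eq_of_le_of_card_ge
    · rintro _ ⟨x, hx, rfl⟩
      have hx' := (hXmem x).1 hx
      refine (hXmem _).2 ⟨?_, mul_mem (mul_mem hg hx'.2) (inv_mem hg)⟩
      obtain ⟨n, hn⟩ := hx'.1
      have hn' : f y ^ n = f x := hn
      show f (g * x * g⁻¹) ∈ _
      rw [map_mul, map_mul, map_inv, ← hn', ← conj_zpow, heq]
      exact zpow_mem (inv_mem (mem_zpowers _)) n
    · rw [card_cj]
  obtain ⟨n, hn, z, hz, hgz⟩ := frattini_arg (H := X ⊔ zpowers g) hT le_sup_left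
    (sup_le le_normalizer hgX) ((le_sup_right : zpowers g ≤ _) (mem_zpowers g))
  have hXg : X ⊔ zpowers g ≤ H := sup_le hXH (by rwa [zpowers_le])
  have hzH : z ∈ H := hXg hz.1
  have hfz : f z * f y * (f z)⁻¹ = (f y)⁻¹ := by
    have h1 : f g = f n * f z := by rw [hgz, map_mul]
    have h2 : f n * f y = f y * f n := by
      obtain ⟨m, hm⟩ := ((hXmem n).1 hn).1
      have hm' : f y ^ m = f n := hm
      rw [← hm']
      exact (Commute.zpow_left (Commute.refl _) m).eq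
    rw [h1] at heq
    have h3 : f n * (f z * f y * (f z)⁻¹) * (f n)⁻¹ = (f y)⁻¹ := by rw [← heq]; group
    have h4 : (f n)⁻¹ * (f y)⁻¹ * f n = (f y)⁻¹ := by
      have : (f y)⁻¹ * f n = f n * (f y)⁻¹ := by
        rw [inv_mul_eq_iff_eq_mul, ← mul_assoc, ← h2]; group
      rw [mul_assoc, this]; group
    calc f z * f y * (f z)⁻¹ = (f n)⁻¹ * (f n * (f z * f y * (f z)⁻¹) * (f n)⁻¹) * f n := by group
      _ = (f y)⁻¹ := by rw [h3, h4]
  obtain ⟨m, hm, n', hn'⟩ := exists_odd_pow_two z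
  have h5 := inv_pow_odd hfz hm
  have h6 : ∀ r ∈ T, z ^ m * r * (z ^ m)⁻¹ = r := by
    apply h.centralize (hT.le.trans hXH) hT.pgroup n' (z ^ m) (pow_mem hzH m)
      (by rw [← hn']; exact pow_orderOf_eq_one _)
    intro r hr
    exact H18.conj_mem_of_mem_normalizer (pow_mem hz.2 m) hr
  have h7 : f y ∈ T.map f := by rw [hmap]; exact mem_zpowers _
  obtain ⟨r, hr, hry⟩ := h7
  have h8 := congrArg f (h6 r hr)
  rw [map_mul, map_mul, map_inv, map_pow, hry] at h8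
  exact hy1 (eq_one_of_inv_self hq2 hk (h8.symm.trans h5))

end fin

end Cfsg.Agent.H4
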