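import Cfsg.Agent.H4.InvD
import Mathlib

/-!
# Inverted elements (helper4), V: normalizers of `Z(J(T))`
-/

set_option autoImplicit false
set_option linter.style.haveILetI false

open Subgroup Cfsg

namespace Cfsg.Agent.H4

open H14 H2

universe u

variable {G : Type u} [Group G]

/-- the normalizer of `Z(J(T))` -/
def NZ (T : Subgroup G) : Subgroup G := normalizer (Zf (fun U A => AbIn U A) T : Set G)

/-- no nonidentity `q`-element is inverted in the normalizer of `Z(J(T))` -/
def CQ (q : ℕ) (G : Type u) [Group G] : Prop := ∀ T : Sylow q G, NIOf q (NZ (T : Subgroup G))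

section fin

variable [Finite G] {q : ℕ} [hq : Fact q.Prime]

theorem normalizer_le_NZ (U : Subgroup G) : normalizer (U : Set G) ≤ NZ U := by
  haveI : Fact (Nat.Prime 3) := ⟨Nat.prime_three⟩
  exact (abFam (G := G) (p := 3) (by norm_num)).normalizer_le U

theorem le_NZ (U : Subgroup G) : U ≤ NZ U := le_normalizer.trans (normalizer_le_NZ U)

theorem Zf_le' (U : Subgroup G) : Zf (fun U A => AbIn U A) U ≤ U := by
  haveI : Fact (Nat.Prime 3) := ⟨Nat.prime_three⟩
  exact (abFam (G := G) (p := 3) (by norm_num)).Zf_le U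

theorem Zf_ne_bot {U : Subgroup G} (hU : IsPGroup q U) (hU1 : U ≠ ⊥) :
    Zf (fun U A => AbIn U A) U ≠ ⊥ := by
  haveI : Nontrivial U := (Subgroup.nontrivial_iff_ne_bot U).2 hU1
  haveI := hU.center_nontrivial
  obtain ⟨z, hz⟩ := exists_ne (1 : Subgroup.center U)
  intro h
  apply hz
  have h1 : ((z : U) : G) ∈ Zf (fun U A => AbIn U A) U := by
    refine Subgroup.mem_sInf.2 ?_
    intro A hA
    apply AbIn.mem_of_centralize hA (z : U).2
    intro a ha
    have := Subgroup.mem_center_iff.1 z.2 ⟨a, hA.1 ha⟩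
    exact congrArg Subtype.val this
  rw [h, Subgroup.mem_bot] at h1
  exact Subtype.ext (Subtype.ext h1)

theorem CQ.nzof (h : CQ q G) {P : Subgroup G} (hP : IsSylIn q P ⊤) : NIOf q (NZ P) := by
  obtain ⟨S, rfl⟩ := hP.eq_sylow
  exact h S

theorem NZ_map_inj {M : Subgroup G} (S : Subgroup M) : (NZ S).map M.subtype ≤ NZ (S.map M.subtype) := by
  unfold NZ
  have h1 := Zf_map_of_injOn (U := S) (f := M.subtype)
    (M.subtype_injective.comp S.subtype_injective)
  rw [← h1]
  exact Subgroup.le_normalizer_map _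

theorem CQ.sub (h : CQ q G) {T : Subgroup G} (hT : IsSylIn q T ⊤) {M : Subgroup G} (hTM : T ≤ M) :
    CQ q M := by
  intro S
  have h1 : IsSylIn q ((S : Subgroup M).map M.subtype) ⊤ := by
    apply isSylIn_of_card_le hT le_top (S.2.map _)
    exact ((hT.mono hTM le_top).card_eq (isSylIn_of_sylow S)).le
  have h2 := (h.nzof h1).comap M.subtype_injective
  apply h2.mono
  rw [← Subgroup.map_le_iff_le_comap]
  exact NZ_map_inj _

theorem CQ.quot (hq2 : q ≠ 2) (h : CQ q G) (K : Subgroup G) [K.Normal] (hK : (Nat.card K).Coprime q) :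
    CQ q (G ⧸ K) := by
  intro S
  obtain ⟨T⟩ : Nonempty (Sylow q G) := inferInstance
  have h1 : IsSylIn q ((T : Subgroup G).map (QuotientGroup.mk' K)) ⊤ := by
    have := isSylIn_map_hom (QuotientGroup.mk' K) (Sylow.isSylIn_top T)
    rwa [← MonoidHom.range_eq_map, QuotientGroup.range_mk'] at this
  obtain ⟨x, _, hx⟩ := (Sylow.isSylIn_top S).exists_cj_eq h1
  obtain ⟨y, rfl⟩ := QuotientGroup.mk'_surjective K x
  have h2 : (S : Subgroup (G ⧸ K)) = (cj y (T : Subgroup G)).map (QuotientGroup.mk' K) := by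
    rw [← hx]
    show Subgroup.map _ (Subgroup.map _ _) = Subgroup.map _ (Subgroup.map _ _)
    rw [Subgroup.map_map, Subgroup.map_map]
    congr 1
  have h3 : IsSylIn q (cj y (T : Subgroup G)) ⊤ := by
    have := (Sylow.isSylIn_top T).cj y
    rwa [cj_top] at this
  have h4 := h.nzof h3
  rw [h2]
  unfold NZ at h4 ⊢
  rw [← Zf_map_of_injOn (mk'_comp_subtype_injective h3.pgroup hK),
    H10.normalizer_map_mk (h3.pgroup.to_le (Zf_le' _)) hK]
  exact h4.map hq2 _

theorem card_lt_of_ne_top {M : Subgroup G} (hM : M ≠ ⊤) : Nat.card M < Nat.card G := by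
  rw [← Subgroup.card_top (G := G)]
  rw [lt_iff_not_ge]
  intro h
  exact hM (Subgroup.eq_of_le_of_card_ge le_top h)

theorem card_quot_lt {K : Subgroup G} [K.Normal] (hK : K ≠ ⊥) : Nat.card (G ⧸ K) < Nat.card G := by
  have h1 := Subgroup.card_eq_card_quotient_mul_card_subgroup K
  have h2 : 1 < Nat.card K := K.one_lt_card_iff_ne_bot.2 hK
  have h3 : 0 < Nat.card (G ⧸ K) := Nat.card_pos
  nlinarith

/-- minimal counterexample: a normal `q`-subgroup -/
theorem exists_normal_of_min
    (IH : ∀ (L : Type u) [Group L] [Finite L], Nat.card L < Nat.card G → CQ q L →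
      NIOf q (⊤ : Subgroup L)) (h : CQ q G) (hn : ¬ NIOf q (⊤ : Subgroup G)) :
    pCore q G ≠ ⊥ := by
  classical
  obtain ⟨f, hf⟩ : ∃ f : Subgroup G → ℕ, ∀ R : Subgroup G, ∀ P : Subgroup G, IsSylIn q P (normalizer (R : Set G)) →
      f R = Nat.card P := by
    refine ⟨fun R => Nat.card (exists_isSylIn (p := q) (normalizer (R : Set G))).choose, ?_⟩
    intro R P hP
    exact (exists_isSylIn (p := q) (normalizer (R : Set G))).choose_spec.card_eq hP
  obtain ⟨R, ⟨hRq, hR1, hRn⟩, hmax⟩ := Set.exists_max_image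
    {R : Subgroup G | IsPGroup q R ∧ R ≠ ⊥ ∧ ¬ NIOf q (normalizer (R : Set G))} f
    (Set.toFinite _) (by
      unfold NIOf at hn
      push Not at hn
      obtain ⟨x, _, ⟨k, hk⟩, hx1, g, _, hg⟩ := hn
      refine ⟨zpowers x, ?_, ?_, ?_⟩
      · rw [H18.isPGroup_iff_mem]
        rintro _ ⟨n, rfl⟩
        refine ⟨k, ?_⟩
        show (x ^ n) ^ q ^ k = 1
        rw [← zpow_natCast, ← zpow_mul, mul_comm, zpow_mul, zpow_natCast, hk, one_zpow]
      · rwa [Ne, zpowers_eq_bot]
      · intro h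
        refine h x (le_normalizer (mem_zpowers x)) ⟨k, hk⟩ hx1 g ?_ hg
        rw [mem_normalizer_cj]
        apply Subgroup.eq_of_le_of_card_ge
        · rintro _ ⟨y, ⟨n, rfl⟩, rfl⟩
          show g * x ^ n * g⁻¹ ∈ zpowers x
          rw [← conj_zpow, hg]
          exact zpow_mem (inv_mem (mem_zpowers _)) n
        · rw [card_cj])
  by_cases hN : normalizer (R : Set G) = ⊤
  · intro h1
    haveI := Subgroup.normalizer_eq_top_iff.1 hN
    apply hR1
    rw [eq_bot_iff, ← h1]
    exact H18.le_pCore inferInstance hRq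
  · exfalso
    have h1 : ¬ CQ q (normalizer (R : Set G)) := by
      intro hc
      exact hRn (niOf_iff_top.2 (IH _ (card_lt_of_ne_top hN) hc))
    unfold CQ at h1
    push Not at h1
    obtain ⟨S, hS⟩ := h1
    obtain ⟨T, hT⟩ : ∃ T, T = (S : Subgroup (normalizer (R : Set G))).map
      (normalizer (R : Set G)).subtype := ⟨_, rfl⟩
    have hTs : IsSylIn q T (normalizer (R : Set G)) := by rw [hT]; exact isSylIn_of_sylow S
    have h2 : ¬ NIOf q (NZ T) := by
      intro h3
      apply hS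
      apply (h3.comap (normalizer (R : Set G)).subtype_injective).mono
      rw [← Subgroup.map_le_iff_le_comap, hT]
      exact NZ_map_inj _
    have hRT : R ≤ T := by
      obtain ⟨x, hx, hxR⟩ := hTs.exists_cj_le le_normalizer hRq
      rwa [mem_normalizer_cj.1 hx] at hxR
    have hT1 : T ≠ ⊥ := by
      intro h3
      rw [h3, le_bot_iff] at hRT
      exact hR1 hRT
    have hZ := hmax (Zf (fun U A => AbIn U A) T) ⟨hTs.pgroup.to_le (Zf_le' _),
      Zf_ne_bot hTs.pgroup hT1, h2⟩
    rw [hf R T hTs] at hZ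
    -- `T` is a Sylow subgroup of `G`
    obtain ⟨P, hP, hTP⟩ := exists_isSylIn_ge (p := q) (le_top : T ≤ ⊤) hTs.pgroup
    have h3 : T = P := by
      by_contra hne
      have h4 := lt_inf_normalizer_of_lt hP.pgroup (lt_of_le_of_ne hTP hne)
      obtain ⟨P', hP', hPP⟩ := exists_isSylIn_ge (p := q) (H := NZ T)
        (inf_le_right.trans (normalizer_le_NZ T) : P ⊓ normalizer (T : Set G) ≤ NZ T)
        (hP.pgroup.to_le inf_le_left)
      have h5 := hf (Zf (fun U A => AbIn U A) T) P' hP'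
      rw [h5] at hZ
      have h6 : Nat.card T < Nat.card P' := by
        rw [lt_iff_not_ge]
        intro h7
        have h8 := Subgroup.eq_of_le_of_card_ge (h4.le.trans hPP) h7
        exact absurd (h4.trans_le hPP) (by rw [h8]; exact lt_irrefl _)
      omega
    rw [h3] at h2
    exact h2 (h.nzof hP)

theorem sub_ni
    (IH : ∀ (L : Type u) [Group L] [Finite L], Nat.card L < Nat.card G → CQ q L →
      NIOf q (⊤ : Subgroup L)) (h : CQ q G) {T : Subgroup G} (hT : IsSylIn q T ⊤) {M : Subgroup G}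
    (hTM : T ≤ M) (hM : M ≠ ⊤) : NIOf q M :=
  niOf_iff_top.2 (IH M (card_lt_of_ne_top hM) (h.sub hT hTM))

theorem pPrimeCore_bot_of_min (hq2 : q ≠ 2)
    (IH : ∀ (L : Type u) [Group L] [Finite L], Nat.card L < Nat.card G → CQ q L →
      NIOf q (⊤ : Subgroup L)) (h : CQ q G) (hn : ¬ NIOf q (⊤ : Subgroup G)) :
    pPrimeCore q G = ⊥ := by
  by_contra hK
  apply hn
  have hcop := H1.pPrimeCore_coprime q G
  have h1 := IH _ (card_quot_lt hK) (h.quot hq2 _ hcop)
  rintro x _ ⟨k, hk⟩ hx1 g _ heq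
  have h2 : (QuotientGroup.mk x : G ⧸ pPrimeCore q G) = 1 := by
    by_contra hne
    refine h1 _ (mem_top _) ⟨k, ?_⟩ hne (QuotientGroup.mk g) (mem_top _) ?_
    · rw [← QuotientGroup.mk_pow, hk]; rfl
    · rw [← QuotientGroup.mk_inv, ← QuotientGroup.mk_inv, ← QuotientGroup.mk_mul,
        ← QuotientGroup.mk_mul, heq]
  rw [QuotientGroup.eq_one_iff] at h2
  apply hx1
  have h3 := Subgroup.orderOf_dvd_natCard _ h2
  have h4 := orderOf_dvd_of_pow_eq_one hk
  have h5 : orderOf x ∣ 1 := by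
    rw [← Nat.Coprime.gcd_eq_one (Nat.Coprime.pow_right k hcop)]
    exact Nat.dvd_gcd h3 h4
  exact orderOf_eq_one_iff.1 (Nat.dvd_one.1 h5)

theorem ni_quot_of_min (hq2 : q ≠ 2)
    (IH : ∀ (L : Type u) [Group L] [Finite L], Nat.card L < Nat.card G → CQ q L →
      NIOf q (⊤ : Subgroup L)) (h : CQ q G) (hQ : pCore q G ≠ ⊥) :
    NIOf q (⊤ : Subgroup (G ⧸ pCore q G)) := by
  obtain ⟨Q, hQe⟩ : ∃ Q, Q = pCore q G := ⟨_, rfl⟩
  haveI hQn : Q.Normal := by rw [hQe]; infer_instance
  have hcore : pCore q (G ⧸ Q) = ⊥ := by subst hQe; exact H18.pCore_quotient_pCore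
  have hQp : IsPGroup q Q := by rw [hQe]; exact H18.isPGroup_pCore q G
  have goal : NIOf q (⊤ : Subgroup (G ⧸ Q)) := by
    by_cases hex : ∃ S : Sylow q (G ⧸ Q), NZ (S : Subgroup (G ⧸ Q)) = ⊤
    · obtain ⟨S, hS⟩ := hex
      haveI : (Zf (fun U A => AbIn U A) (S : Subgroup (G ⧸ Q))).Normal :=
        Subgroup.normalizer_eq_top_iff.1 hS
      have h1 : Zf (fun U A => AbIn U A) (S : Subgroup (G ⧸ Q)) = ⊥ := by
        rw [eq_bot_iff, ← hcore]
        exact H18.le_pCore inferInstance (S.2.to_le (Zf_le' _))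
      have h2 : (S : Subgroup (G ⧸ Q)) = ⊥ := by
        by_contra h3
        exact Zf_ne_bot S.2 h3 h1
      rintro x _ ⟨k, hk⟩ hx1
      exfalso
      apply hx1
      have h3 : IsPGroup q (zpowers x) := by
        rw [H18.isPGroup_iff_mem]
        rintro _ ⟨n, rfl⟩
        refine ⟨k, ?_⟩
        show (x ^ n) ^ q ^ k = 1
        rw [← zpow_natCast, ← zpow_mul, mul_comm, zpow_mul, zpow_natCast, hk, one_zpow]
      obtain ⟨y, _, hy⟩ := (Sylow.isSylIn_top S).exists_cj_le le_top h3
      rw [h2, le_bot_iff, cj_eq_bot, zpowers_eq_bot] at hy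
      exact hy
    · push Not at hex
      apply IH _ (card_quot_lt (by rw [hQe]; exact hQ))
      intro S
      have h1 := hex S
      obtain ⟨L, hL⟩ : ∃ L : Subgroup G, L = (NZ (S : Subgroup (G ⧸ Q))).comap (QuotientGroup.mk' Q) :=
        ⟨_, rfl⟩
      have hLmap : L.map (QuotientGroup.mk' Q) = NZ (S : Subgroup (G ⧸ Q)) := by
        rw [hL]
        exact Subgroup.map_comap_eq_self_of_surjective (QuotientGroup.mk'_surjective Q) _
      have hLtop : L ≠ ⊤ := by
        intro h2
        apply h1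
        rw [← hLmap, h2, ← MonoidHom.range_eq_map, QuotientGroup.range_mk']
      rw [← hLmap]
      apply NIOf.map hq2
      -- a Sylow subgroup of `G` in `L`
      obtain ⟨T, hT⟩ := exists_isSylIn (p := q) ((S : Subgroup (G ⧸ Q)).comap (QuotientGroup.mk' Q))
      have hTL : T ≤ L := by
        refine hT.le.trans ?_
        rw [hL]
        exact Subgroup.comap_mono (le_NZ _)
      have hT' : IsSylIn q T ⊤ := by
        have hp1 : IsPGroup q ((S : Subgroup (G ⧸ Q)).comap (QuotientGroup.mk' Q)) := by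
          rw [H18.isPGroup_iff_mem]
          intro x hx
          obtain ⟨k, hk⟩ := H18.isPGroup_of_mem S.2 hx
          rw [← map_pow] at hk
          obtain ⟨l, hl⟩ := H18.isPGroup_of_mem hQp ((QuotientGroup.eq_one_iff _).1 hk)
          exact ⟨k + l, by rw [pow_add, pow_mul, hl]⟩
        have h2 : T = (S : Subgroup (G ⧸ Q)).comap (QuotientGroup.mk' Q) :=
          (hT.eq_of_le hT.le le_rfl hp1).symm
        refine ⟨le_top, hT.pgroup, ?_⟩
        rw [Subgroup.relIndex_top_right, h2,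
          Subgroup.index_comap_of_surjective _ (QuotientGroup.mk'_surjective Q)]
        exact S.not_dvd_index
      exact sub_ni IH h hT' hTL hLtop
  subst hQe
  exact goal

end fin

end Cfsg.Agent.H4
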