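import Cfsg.Agent.H4.InvE
import Cfsg.Agent.H10.LBalTwo
import Mathlib

/-!
# Inverted elements (helper4), VI: structure of a minimal counterexample
-/

set_option autoImplicit false
set_option linter.style.haveILetI false

open Subgroup Cfsg
open scoped commutatorElement

namespace Cfsg.Agent.H4

open H14 H2

universe u

variable {G : Type u} [Group G]

section fin

variable [Finite G] {q : ℕ} [hq : Fact q.Prime]

/-- an inverted element in `O_q(G)` -/
theorem exists_inv_core (hn : ¬ NIOf q (⊤ : Subgroup G))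
    (hquo : NIOf q (⊤ : Subgroup (G ⧸ pCore q G))) :
    ∃ x ∈ pCore q G, x ≠ 1 ∧ ∃ g : G, g * x * g⁻¹ = x⁻¹ := by
  unfold NIOf at hn
  push Not at hn
  obtain ⟨x, _, ⟨k, hk⟩, hx1, g, _, hg⟩ := hn
  refine ⟨x, ?_, hx1, g, hg⟩
  by_contra hne
  have h2 : (QuotientGroup.mk x : G ⧸ pCore q G) ≠ 1 := by
    rwa [Ne, QuotientGroup.eq_one_iff]
  refine hquo _ (mem_top _) ⟨k, ?_⟩ h2 (QuotientGroup.mk g) (mem_top _) ?_
  · rw [← QuotientGroup.mk_pow, hk]; rfl
  · rw [← QuotientGroup.mk_inv, ← QuotientGroup.mk_inv, ← QuotientGroup.mk_mul,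
      ← QuotientGroup.mk_mul, hg]

theorem core_le {T : Subgroup G} (hT : IsSylIn q T ⊤) {P : Subgroup G} [P.Normal] (hP : IsPGroup q P) :
    P ≤ T := by
  obtain ⟨x, _, hx⟩ := hT.exists_cj_le le_top hP
  have : cj x P = P := by
    rw [← mem_normalizer_cj, Subgroup.normalizer_eq_top]; exact mem_top x
  rwa [this] at hx

theorem cent_le_of_min
    (hsub : ∀ (T M : Subgroup G), IsSylIn q T ⊤ → T ≤ M → M ≠ ⊤ → NIOf q M)
    (hp' : pPrimeCore q G = ⊥)
    (hx : ∃ x ∈ pCore q G, x ≠ 1 ∧ ∃ g : G, g * x * g⁻¹ = x⁻¹) :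
    centralizer (pCore q G : Set G) ≤ pCore q G := by
  obtain ⟨Q, hQe⟩ : ∃ Q, Q = pCore q G := ⟨_, rfl⟩
  haveI hQn : Q.Normal := by rw [hQe]; infer_instance
  have hQp : IsPGroup q Q := by rw [hQe]; exact H18.isPGroup_pCore q G
  have hQmax : ∀ N : Subgroup G, N.Normal → IsPGroup q N → N ≤ Q := by
    intro N h1 h2; rw [hQe]; exact H18.le_pCore h1 h2
  rw [← hQe] at hx ⊢
  obtain ⟨C, hC⟩ : ∃ C, C = centralizer (Q : Set G) := ⟨_, rfl⟩
  haveI hCn : C.Normal := by rw [hC]; infer_instance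
  rw [← hC]
  have hcomm : ∀ c ∈ C, ∀ y ∈ Q, c * y = y * c := by
    intro c hc y hy
    rw [hC, mem_centralizer_iff] at hc
    exact (hc y hy).symm
  obtain ⟨x, hxQ, hx1, g, hg⟩ := hx
  obtain ⟨T, hT⟩ := exists_isSylIn (p := q) (⊤ : Subgroup G)
  have hD : IsSylIn q (T ⊓ C) C := hT.inf_of_normalizes le_top H18.le_normalizer_of_normal
  have hQT : Q ≤ T := core_le hT hQp
  have hTD : T ≤ normalizer ((T ⊓ C : Subgroup G) : Set G) :=
    H18.le_normalizer_inf le_normalizer H18.le_normalizer_of_normal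
  have hDn : normalizer ((T ⊓ C : Subgroup G) : Set G) = ⊤ := by
    by_contra hne
    have hNI := hsub T _ hT hTD hne
    obtain ⟨c, hc, y, hy, hgy⟩ := frattini_arg (H := ⊤) hD le_top H18.le_normalizer_of_normal (mem_top g)
    have hyx : y * x * y⁻¹ = x⁻¹ := by
      have h1 : y * x * y⁻¹ ∈ Q := hQn.conj_mem x hxQ y
      rw [← hg, hgy]
      calc y * x * y⁻¹ = c * (y * x * y⁻¹) * c⁻¹ := by rw [hcomm c hc _ h1]; group
        _ = c * y * x * (c * y)⁻¹ := by group
    exact hNI x (hTD (hQT hxQ)) (H18.isPGroup_of_mem hQp hxQ) hx1 y hy.2 hyx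
  haveI hDn' : (T ⊓ C).Normal := Subgroup.normalizer_eq_top_iff.1 hDn
  have hDQ : T ⊓ C ≤ Q := hQmax _ hDn' hD.pgroup
  obtain ⟨S, hS⟩ := hD.exists_sylow
  have hScent : (S : Subgroup C) ≤ Subgroup.center C := by
    intro s hs
    rw [Subgroup.mem_center_iff]
    intro c
    have h1 : (s : G) ∈ T ⊓ C := by rw [← hS]; exact ⟨s, hs, rfl⟩
    exact Subtype.ext (hcomm c c.2 s (hDQ h1))
  intro c hc
  obtain ⟨z, hz, o, ho, hzo⟩ := H10.central_sylow_factor S hScent ⟨c, hc⟩
  have ho1 : (o : G) = 1 := by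
    have h1 : ((pPrimeCore q C).map C.subtype).Normal := ConjAct.normal_of_characteristic_of_normal
    have h2 : (Nat.card ((pPrimeCore q C).map C.subtype)).Coprime q := by
      rw [Subgroup.card_map_of_injective C.subtype_injective]
      exact H1.pPrimeCore_coprime q C
    have h3 := H1.le_pPrimeCore h1 h2
    rw [hp', le_bot_iff] at h3
    have h4 : (o : G) ∈ (pPrimeCore q C).map C.subtype := ⟨o, ho, rfl⟩
    rw [h3] at h4
    exact h4
  have h1 : (z : G) ∈ T ⊓ C := by rw [← hS]; exact ⟨z, hz, rfl⟩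
  have h2 : c = (z : G) * o := congrArg Subtype.val hzo.symm
  rw [h2, ho1, mul_one]
  exact hDQ h1

/-- proper overgroups of Sylow subgroups have odd order -/
theorem odd_of_min (hq2 : q ≠ 2)
    (hc : centralizer (pCore q G : Set G) ≤ pCore q G)
    {M : Subgroup G} (hQM : pCore q G ≤ M) (hM : NIOf q M) : Odd (Nat.card M) := by
  rw [← Nat.not_even_iff_odd, even_iff_two_dvd]
  intro h2
  haveI : Fact (Nat.Prime 2) := ⟨Nat.prime_two⟩
  obtain ⟨t, ht⟩ := exists_prime_orderOf_dvd_card' 2 h2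
  have ht' : orderOf (t : G) = 2 := by rw [Subgroup.orderOf_coe]; exact ht
  have h3 := hM.centralize hQM (H18.isPGroup_pCore q G) 1 t t.2
    (by rw [pow_one, ← ht']; exact pow_orderOf_eq_one _)
    (fun r hr => (inferInstance : (pCore q G).Normal).conj_mem r hr t)
  have h4 : (t : G) ∈ pCore q G := by
    apply hc
    rw [mem_centralizer_iff]
    intro r hr
    have := h3 r hr
    rw [mul_inv_eq_iff_eq_mul] at this
    exact this.symm
  obtain ⟨k, hk⟩ := H18.isPGroup_of_mem (H18.isPGroup_pCore q G) h4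
  have h5 := orderOf_dvd_of_pow_eq_one hk
  rw [ht'] at h5
  exact hq2 ((Nat.prime_dvd_prime_iff_eq Nat.prime_two hq.out).1 (Nat.prime_two.dvd_of_dvd_pow h5)).symm

theorem stable_of_odd (hq2 : q ≠ 2) (hodd : Odd (Nat.card G)) (P : Subgroup G) [P.Normal]
    (hP : IsPGroup q P) : IsPStableOn q P := by
  intro a ha
  refine mk_mem_pCore_iff.2 ?_
  by_contra hna
  have h1 := not_stable_normal (G := G) hq2 _ G P rfl hP a ha hna
  haveI : Fact (Nat.Prime 2) := ⟨Nat.prime_two⟩
  obtain ⟨S⟩ : Nonempty (Sylow 2 G) := inferInstance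
  apply h1.2.1 S
  have h2 : (S : Subgroup G) = ⊥ := by
    rw [← Subgroup.card_eq_one]
    obtain ⟨n, hn⟩ := S.2.exists_card_eq
    rw [hn]
    have h3 : 2 ^ n ∣ Nat.card G := by rw [← hn]; exact Subgroup.card_subgroup_dvd_card _
    rcases Nat.eq_zero_or_pos n with h4 | h4
    · rw [h4, pow_zero]
    · exfalso
      have h5 : 2 ∣ Nat.card G := (dvd_pow_self 2 h4.ne').trans h3
      exact (Nat.not_even_iff_odd.2 hodd) (even_iff_two_dvd.2 h5)
  rw [H20.isMulCommutative_iff]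
  intro x hx y hy
  have hx' : x ∈ (S : Subgroup G) := hx
  have hy' : y ∈ (S : Subgroup G) := hy
  rw [h2, Subgroup.mem_bot] at hx' hy'
  rw [hx', hy']

theorem le_NZ_of_min (hq2 : q ≠ 2)
    (hc : centralizer (pCore q G : Set G) ≤ pCore q G)
    {T : Subgroup G} (hT : IsSylIn q T ⊤) {M : Subgroup G} (hTM : T ≤ M) (hM : NIOf q M) :
    M ≤ NZ T := by
  have hQT : pCore q G ≤ T := core_le hT (H18.isPGroup_pCore q G)
  have hodd := odd_of_min hq2 hc (hQT.trans hTM) hM
  obtain ⟨S, hS⟩ := (hT.mono hTM le_top).exists_sylow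
  have hQM : (pCore q G).subgroupOf M ≤ pCore q M := by
    apply H18.le_pCore inferInstance
    exact H18.isPGroup_subgroupOf (H18.isPGroup_pCore q G)
  have hcM : centralizer (pCore q M : Set M) ≤ pCore q M := by
    intro x hx
    apply hQM
    rw [Subgroup.mem_subgroupOf]
    apply hc
    rw [mem_centralizer_iff] at hx ⊢
    intro y hy
    have hyM : y ∈ M := hTM (hQT hy)
    have := hx ⟨y, hyM⟩ (hQM (Subgroup.mem_subgroupOf.2 hy))
    exact congrArg Subtype.val this
  have h1 := (abFam (G := M) hq2).ZJ_normal S hcM (fun P _ hP => stable_of_odd hq2 hodd P hP)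
  have h2 := Zf_map_of_injOn (U := (S : Subgroup M)) (f := M.subtype)
    (M.subtype_injective.comp (S : Subgroup M).subtype_injective)
  unfold NZ
  rw [← hS, ← h2]
  have h3 := Subgroup.le_normalizer_map (H := Zf (fun U A => AbIn U A) (S : Subgroup M)) M.subtype
  rw [Subgroup.normalizer_eq_top, ← MonoidHom.range_eq_map, Subgroup.range_subtype] at h3
  exact h3

/-! ### reduction to quadratic action on an elementary abelian group -/

/-- the unique maximal overgroup of a Sylow subgroup is proper of odd order -/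
def UMax (q : ℕ) (G : Type u) [Group G] : Prop :=
  ∃ (T H : Subgroup G), IsSylIn q T ⊤ ∧ T ≤ H ∧ H ≠ ⊤ ∧ (∀ M, T ≤ M → M ≠ ⊤ → M ≤ H) ∧
    Odd (Nat.card H)

theorem umax_map {G' : Type*} [Group G'] {f : G →* G'} (hf : Function.Surjective f)
    {T H : Subgroup G} (hT : IsSylIn q T ⊤) (hTH : T ≤ H) (hH : H ≠ ⊤)
    (hmax : ∀ M, T ≤ M → M ≠ ⊤ → M ≤ H) (hodd : Odd (Nat.card H)) (hker : f.ker ≤ H) :
    IsSylIn q (T.map f) ⊤ ∧ T.map f ≤ H.map f ∧ H.map f ≠ ⊤ ∧
      (∀ M, T.map f ≤ M → M ≠ ⊤ → M ≤ H.map f) ∧ Odd (Nat.card (H.map f)) := by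
  refine ⟨?_, Subgroup.map_mono hTH, ?_, ?_, ?_⟩
  · have := isSylIn_map_hom f hT
    rwa [← MonoidHom.range_eq_map, MonoidHom.range_eq_top.2 hf] at this
  · intro h
    have h1 := congrArg (Subgroup.comap f) h
    rw [Subgroup.comap_map_eq, sup_eq_left.2 hker, Subgroup.comap_top] at h1
    exact hH h1
  · intro M hM1 hM2
    have h1 : M.comap f ≤ H := by
      apply hmax
      · exact Subgroup.map_le_iff_le_comap.1 hM1
      · intro h
        apply hM2
        rw [← Subgroup.map_comap_eq_self_of_surjective hf M, h, ← MonoidHom.range_eq_map,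
          MonoidHom.range_eq_top.2 hf]
    rw [← Subgroup.map_comap_eq_self_of_surjective hf M]
    exact Subgroup.map_mono h1
  · exact Odd.of_dvd_nat hodd (Subgroup.card_map_dvd H f)

end fin

end Cfsg.Agent.H4
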