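import Cfsg.Agent.H4.InvF
import Cfsg.Agent.H2.QD5
import Mathlib

/-!
# Inverted elements (helper4), VII: the main induction
-/

set_option autoImplicit false
set_option linter.style.haveILetI false

open Subgroup Cfsg
open scoped commutatorElement

namespace Cfsg.Agent.H4

open H14 H2

universe u

/-- **reduction to elementary abelian sections**, for an arbitrary conclusion -/
theorem not_stable_normal_gen_p {p : ℕ} [hp : Fact p.Prime]
    (Concl : ∀ (G : Type u) [Group G], Prop)
    (hquo : ∀ (G : Type u) [Group G] [Finite G] (V : Subgroup G) [V.Normal],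
      IsPGroup p V → Concl (G ⧸ V) → Concl G)
    (hel : ∀ (G : Type u) [Group G] [Finite G] (V : Subgroup G) [V.Normal],
      IsElementaryAbelian p V → ∀ a : G, ⁅⁅V, Subgroup.zpowers a⁆, Subgroup.zpowers a⁆ = ⊥ →
      ¬ PInf p (Subgroup.centralizer (V : Set G)) a → Concl G) (n : ℕ) :
    ∀ (G : Type u) [Group G] [Finite G] (P : Subgroup G) [P.Normal], Nat.card P = n →
      IsPGroup p P → ∀ a : G, ⁅⁅P, Subgroup.zpowers a⁆, Subgroup.zpowers a⁆ = ⊥ →
      ¬ PInf p (Subgroup.centralizer (P : Set G)) a → Concl G := by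
  induction n using Nat.strong_induction_on with
  | _ n ih =>
  intro G _ _ P hPn hcard hP a ha hna
  by_cases hP1 : P = ⊥
  · exfalso
    apply hna
    refine ⟨⊤, inferInstance, Subgroup.mem_top a, fun d _ => ⟨0, ?_⟩⟩
    rw [hP1, Subgroup.mem_centralizer_iff]
    intro x hx
    rw [show x = 1 from hx]
    simp
  obtain ⟨V, hVn, hV1, hVP, hmin⟩ := H1.exists_minimal_normal_le hPn hP1
  haveI := hVn
  haveI : Group.IsNilpotent V := (hP.to_le hVP).isNilpotent
  haveI : Group.IsSolvable V := inferInstance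
  obtain ⟨hVc, q, hq, hVq, hVe⟩ := H1.minimal_normal_solvable hVn hV1 hmin inferInstance
  -- q = p
  have hqp : q = p := by
    obtain ⟨x, hx, hx1⟩ := (Subgroup.bot_or_exists_ne_one V).resolve_left hV1
    obtain ⟨k, hk⟩ := H18.isPGroup_of_mem (hP.to_le hVP) hx
    have h1 := orderOf_dvd_of_pow_eq_one (hVe x hx)
    have h2 := orderOf_dvd_of_pow_eq_one hk
    have h3 : orderOf x = q := (Nat.dvd_prime hq).1 h1 |>.resolve_left
      (fun h => hx1 (orderOf_eq_one_iff.1 h))
    rw [h3] at h2
    exact (Nat.prime_dvd_prime_iff_eq hq hp.out).1 (hq.dvd_of_dvd_pow h2)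
  subst hqp
  have hVE : IsElementaryAbelian q V := ⟨hVc, hVe⟩
  have hVa : ⁅⁅V, Subgroup.zpowers a⁆, Subgroup.zpowers a⁆ = ⊥ := by
    rw [eq_bot_iff, ← ha]
    exact Subgroup.commutator_mono (Subgroup.commutator_mono hVP le_rfl) le_rfl
  by_cases h1 : PInf q (Subgroup.centralizer (V : Set G)) a
  · -- pass to G/V
    obtain ⟨D₁, hD₁, haD₁, hD₁p⟩ := h1
    have hcard' : Nat.card (P.map (QuotientGroup.mk' V)) < n := by
      have h2 : Nat.card (P.map (QuotientGroup.mk' V)) * Nat.card V = Nat.card P := by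
        have h3 : (V.subgroupOf P).index = Nat.card (P.map (QuotientGroup.mk' V)) := by
          have h4 : (QuotientGroup.mk' V).ker.relIndex P = Nat.card (P.map (QuotientGroup.mk' V)) :=
            Subgroup.relIndex_ker _ _
          rwa [QuotientGroup.ker_mk'] at h4
        rw [← h3]
        have h5 := Subgroup.index_mul_card (V.subgroupOf P)
        rwa [Nat.card_congr (Subgroup.subgroupOfEquivOfLe hVP).toEquiv] at h5
      have h3 : 1 < Nat.card V := Subgroup.one_lt_card_iff_ne_bot V |>.2 hV1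
      have h4 : 0 < Nat.card (P.map (QuotientGroup.mk' V)) := Nat.card_pos
      rw [← hcard, ← h2]
      nlinarith
    by_cases h2 : PInf q (Subgroup.centralizer ((P.map (QuotientGroup.mk' V) : Subgroup (G ⧸ V)) :
        Set (G ⧸ V))) (QuotientGroup.mk' V a)
    · exfalso
      apply hna
      obtain ⟨D₂, hD₂, haD₂, hD₂p⟩ := h2
      refine ⟨D₁ ⊓ D₂.comap (QuotientGroup.mk' V), inferInstance,
        Subgroup.mem_inf.2 ⟨haD₁, haD₂⟩, ?_⟩
      intro d hd
      obtain ⟨m₁, hm₁⟩ := hD₁p d hd.1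
      obtain ⟨m₂, hm₂⟩ := hD₂p _ hd.2
      obtain ⟨e, he⟩ : ∃ e, e = d ^ q ^ (m₁ + m₂) := ⟨_, rfl⟩
      have he1 : e ∈ Subgroup.centralizer (V : Set G) := by
        rw [he, pow_add, pow_mul]; exact pow_mem hm₁ _
      have he2 : ∀ x ∈ P, ⁅x, e⁆ ∈ V := by
        intro x hx
        have h3 : (QuotientGroup.mk' V) e ∈
            Subgroup.centralizer ((P.map (QuotientGroup.mk' V) : Subgroup (G ⧸ V)) :
              Set (G ⧸ V)) := by
          rw [he, add_comm, pow_add, pow_mul, map_pow, map_pow]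
          exact pow_mem hm₂ _
        rw [Subgroup.mem_centralizer_iff] at h3
        have h4 := h3 _ ⟨x, hx, rfl⟩
        rw [← commutatorElement_eq_one_iff_mul_comm, ← map_commutatorElement] at h4
        exact (QuotientGroup.eq_one_iff _).1 h4
      refine ⟨m₁ + m₂ + 1, ?_⟩
      rw [pow_succ, pow_mul, ← he, Subgroup.mem_centralizer_iff]
      intro x hx
      rw [← commutatorElement_eq_one_iff_mul_comm]
      have h5 := he2 x hx
      have h6 : ⁅x, e⁆ * e = e * ⁅x, e⁆ := by
        rw [Subgroup.mem_centralizer_iff] at he1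
        exact he1 _ h5
      have h7 := comm_pow_right' (n := q) h6.symm
      rw [h7, hVe _ h5]
    · -- induction
      haveI : (P.map (QuotientGroup.mk' V)).Normal :=
        hPn.map _ (QuotientGroup.mk'_surjective _)
      apply hquo G V (hP.to_le hVP)
      apply ih _ hcard' (G ⧸ V) (P.map (QuotientGroup.mk' V)) rfl (hP.map _)
        (QuotientGroup.mk' V a) ?_ h2
      have h4 : Subgroup.zpowers (QuotientGroup.mk' V a) =
          (Subgroup.zpowers a).map (QuotientGroup.mk' V) := by
        rw [MonoidHom.map_zpowers]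
      rw [h4, ← Subgroup.map_commutator, ← Subgroup.map_commutator, ha, Subgroup.map_bot]
  · exact hel G V hVE a hVa h1


section

variable {G : Type u} [Group G] [Finite G] {q : ℕ} [hq : Fact q.Prime]

theorem not_umax_of_quad (hq2 : q ≠ 2) (V : Subgroup G) [V.Normal] (hV : IsElementaryAbelian q V)
    (a : G) (ha : ⁅⁅V, Subgroup.zpowers a⁆, Subgroup.zpowers a⁆ = ⊥)
    (hna : ¬ PInf q (Subgroup.centralizer (V : Set G)) a) : ¬ UMax q G := by
  rintro ⟨T, H, hT, hTH, hH, hmax, hodd⟩
  have hker : ∀ g : G, (MulAut.conjNormal g : MulAut V) = 1 ↔ g ∈ centralizer (V : Set G) := by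
    intro g
    rw [mem_centralizer_iff]
    constructor
    · intro h v hv
      have h1 := DFunLike.congr_fun h (⟨v, hv⟩ : V)
      have h2 : g * v * g⁻¹ = v := by
        have := congrArg Subtype.val h1
        rwa [MulAut.conjNormal_apply] at this
      rw [mul_inv_eq_iff_eq_mul] at h2
      exact h2.symm
    · intro h
      ext ⟨v, hv⟩
      rw [MulAut.conjNormal_apply, ← h v hv]
      simp
  obtain ⟨τ, hτ⟩ : ∃ τ : G →* MulAut V, τ = MulAut.conjNormal := ⟨_, rfl⟩
  rw [← hτ] at hker
  have hτa : ∀ (g : G) (v : V), ((τ g v : V) : G) = g * v * g⁻¹ := by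
    intro g v
    rw [hτ]; exact MulAut.conjNormal_apply g v
  obtain ⟨f, hf⟩ : ∃ f : G →* τ.range, f = τ.rangeRestrict := ⟨_, rfl⟩
  have hfs : Function.Surjective f := by rw [hf]; exact τ.rangeRestrict_surjective
  have hfk : ∀ g, f g = 1 ↔ g ∈ centralizer (V : Set G) := by
    intro g
    rw [← hker, hf]
    constructor
    · intro h
      exact congrArg Subtype.val h
    · intro h
      exact Subtype.ext h
  have hfk' : f.ker = centralizer (V : Set G) := by
    ext g; exact hfk g
  have hfv : ∀ g, (τ.range.subtype (f g) : MulAut V) = τ g := by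
    intro g; rw [hf]; rfl
  -- `f a ∉ O_q`
  have hna' : f a ∉ pCore q τ.range := by
    intro h
    apply hna
    refine ⟨(pCore q τ.range).comap f, inferInstance, h, ?_⟩
    intro d hd
    obtain ⟨m, hm⟩ := H18.isPGroup_of_mem (H18.isPGroup_pCore q _) hd
    rw [← map_pow] at hm
    exact ⟨m, (hfk _).1 hm⟩
  have hCH : f.ker ≤ H := by
    by_cases h1 : f.ker ⊔ T = ⊤
    · exfalso
      apply hna'
      have h2 : T.map f = ⊤ := by
        have h3 := congrArg (Subgroup.map f) h1
        rw [Subgroup.map_sup, (Subgroup.map_eq_bot_iff f.ker).2 le_rfl, bot_sup_eq,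
          ← MonoidHom.range_eq_map, MonoidHom.range_eq_top.2 hfs] at h3
        exact h3
      have h3 : IsPGroup q (⊤ : Subgroup τ.range) := by rw [← h2]; exact hT.pgroup.map f
      exact H18.le_pCore inferInstance h3 (mem_top _)
    · exact le_sup_left.trans (hmax _ le_sup_right h1)
  obtain ⟨h1, h2, h3, h4, h5⟩ := umax_map hfs hT hTH hH hmax hodd hCH
  obtain ⟨S, hS⟩ := h1.eq_sylow
  have hVc := H20.isMulCommutative_iff.1 hV.1
  refine quad_contra hq2 (V := V) ?_ ?_ τ.range.subtype τ.range.subtype_injective S (H.map f)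
    (by rw [hS]; exact h2) h3 (by rw [hS]; exact h4) h5 (a := f a) ?_ hna'
  · intro x y
    exact Subtype.ext (hVc x x.2 y y.2)
  · intro x
    exact Subtype.ext (hV.2 x x.2)
  · intro v
    rw [hfv]
    have h6 : ⁅(a : G), (v : G)⁆ ∈ ⁅V, Subgroup.zpowers a⁆ := by
      rw [Subgroup.commutator_comm]
      exact Subgroup.commutator_mem_commutator (mem_zpowers a) v.2
    have h7 : ⁅⁅(a : G), (v : G)⁆, a⁆ ∈ ⁅⁅V, Subgroup.zpowers a⁆, Subgroup.zpowers a⁆ :=
      Subgroup.commutator_mem_commutator h6 (mem_zpowers a)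
    rw [ha, Subgroup.mem_bot, commutatorElement_eq_one_iff_mul_comm] at h7
    apply Subtype.ext
    rw [hτa]
    have h8 : ((τ a v * v⁻¹ : V) : G) = ⁅(a : G), (v : G)⁆ := by
      rw [Subgroup.coe_mul, hτa, commutatorElement_def, Subgroup.coe_inv]
    rw [h8, ← h7]
    group

theorem ni_of_cq (hq2 : q ≠ 2) (n : ℕ) : ∀ (G : Type u) [Group G] [Finite G], Nat.card G = n →
    CQ q G → NIOf q (⊤ : Subgroup G) := by
  induction n using Nat.strong_induction_on with
  | _ n ih =>
  intro G _ _ hn h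
  by_contra hni
  have IH : ∀ (L : Type u) [Group L] [Finite L], Nat.card L < Nat.card G → CQ q L →
      NIOf q (⊤ : Subgroup L) := fun L _ _ hL hc => ih _ (by rwa [hn] at hL) L rfl hc
  have hQ1 := exists_normal_of_min IH h hni
  have hp' := pPrimeCore_bot_of_min hq2 IH h hni
  have hquo := ni_quot_of_min hq2 IH h hQ1
  have hx := exists_inv_core hni hquo
  have hc := cent_le_of_min (q := q) (fun T M hT hTM hM => sub_ni IH h hT hTM hM) hp' hx
  obtain ⟨T, hT⟩ := exists_isSylIn (p := q) (⊤ : Subgroup G)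
  have hH : NZ T ≠ ⊤ := by
    intro h1
    apply hni
    rw [← h1]
    exact h.nzof hT
  have hmax : ∀ M, T ≤ M → M ≠ ⊤ → M ≤ NZ T :=
    fun M hTM hM => le_NZ_of_min hq2 hc hT hTM (sub_ni IH h hT hTM hM)
  have hodd : Odd (Nat.card (NZ T)) :=
    odd_of_min hq2 hc ((core_le hT (H18.isPGroup_pCore q G)).trans (le_NZ T)) (h.nzof hT)
  have humax : UMax q G := ⟨T, NZ T, hT, le_NZ T, hH, hmax, hodd⟩
  -- `G` is not stable
  by_cases hst : ∀ (P : Subgroup G) [P.Normal], IsPGroup q P → IsPStableOn q P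
  · obtain ⟨S, hS⟩ := hT.eq_sylow
    have h1 := (abFam (G := G) hq2).ZJ_normal S hc hst
    apply hH
    unfold NZ
    rw [← hS]
    exact Subgroup.normalizer_eq_top_iff.2 h1
  · push Not at hst
    obtain ⟨P, hPn, hP, hns⟩ := hst
    unfold IsPStableOn at hns
    push Not at hns
    obtain ⟨a, ha, hna⟩ := hns
    rw [mk_mem_pCore_iff] at hna
    refine not_stable_normal_gen_p (p := q) (fun G _ => ¬ UMax q G) ?_ ?_ _ G P rfl hP a ha hna humax
    · rintro L _ _ V _ hV hcl ⟨T, H, hT, hTH, hH, hmax, hodd⟩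
      apply hcl
      have hker : (QuotientGroup.mk' V).ker ≤ H := by
        rw [QuotientGroup.ker_mk']
        exact (core_le hT hV).trans hTH
      have := umax_map (QuotientGroup.mk'_surjective V) hT hTH hH hmax hodd hker
      exact ⟨_, _, this⟩
    · intro L _ _ V _ hV a ha hna
      exact not_umax_of_quad hq2 V hV a ha hna

end

end Cfsg.Agent.H4
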