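import Cfsg.Agent.H4.InvG
import Cfsg.Agent.H4.BaerSuzuki
import Mathlib

/-!
# Inverted elements (helper4), VIII: normal Sylow 2-subgroups
-/

set_option autoImplicit false
set_option linter.style.haveILetI false

open Subgroup Cfsg

namespace Cfsg.Agent.H4

open H14 H2

universe u

variable {G : Type u} [Group G] [Finite G]

theorem isPGroup_zpowers {q : ℕ} {x : G} {k : ℕ} (hk : x ^ q ^ k = 1) : IsPGroup q (zpowers x) := by
  rw [H18.isPGroup_iff_mem]
  rintro _ ⟨n, rfl⟩
  refine ⟨k, ?_⟩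
  show (x ^ n) ^ q ^ k = 1
  rw [← zpow_natCast, ← zpow_mul, mul_comm, zpow_mul, zpow_natCast, hk, one_zpow]

/-- `2`-closed groups have no inverted elements of odd order -/
theorem niOf_of_sylow_two_normal (h : ∀ P : Sylow 2 G, (P : Subgroup G).Normal) {q : ℕ}
    [hq : Fact q.Prime] (hq2 : q ≠ 2) : NIOf q (⊤ : Subgroup G) := by
  haveI : Fact (Nat.Prime 2) := ⟨Nat.prime_two⟩
  rintro x _ ⟨k, hk⟩ hx1 g _ hg
  obtain ⟨S⟩ : Nonempty (Sylow 2 G) := inferInstance
  have hSn := h S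
  obtain ⟨m, hm, n, hn⟩ := exists_odd_pow_two g
  have h1 := inv_pow_odd hg hm
  have h2 : g ^ m ∈ (S : Subgroup G) := by
    have h3 : IsPGroup 2 (zpowers (g ^ m)) := isPGroup_zpowers (k := n) (by rw [← hn]; exact pow_orderOf_eq_one _)
    obtain ⟨y, _, hy⟩ := (Sylow.isSylIn_top S).exists_cj_le le_top h3
    rw [cj_le_iff] at hy
    have h4 : cj y⁻¹ (S : Subgroup G) = S := by
      rw [← mem_normalizer_cj, Subgroup.normalizer_eq_top]; exact mem_top _
    rw [h4, zpowers_le] at hy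
    exact hy
  have h3 : g ^ m * x * (g ^ m)⁻¹ * x⁻¹ ∈ (S : Subgroup G) := by
    have h4 : g ^ m * x * (g ^ m)⁻¹ * x⁻¹ = g ^ m * (x * (g ^ m)⁻¹ * x⁻¹) := by group
    rw [h4]
    exact mul_mem h2 (hSn.conj_mem _ (inv_mem h2) x)
  rw [h1] at h3
  obtain ⟨l, hl⟩ := H18.isPGroup_of_mem S.2 h3
  have h4 : x ^ (2 ^ (l + 1)) = 1 := by
    have h5 : x⁻¹ * x⁻¹ = (x ^ 2)⁻¹ := by group
    rw [h5, inv_pow, inv_eq_one, ← pow_mul, ← pow_succ'] at hl
    exact hl
  have h5 := orderOf_dvd_of_pow_eq_one h4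
  have h6 := orderOf_dvd_of_pow_eq_one hk
  have h7 : Nat.Coprime (2 ^ (l + 1)) (q ^ k) := by
    apply Nat.Coprime.pow
    exact (Nat.coprime_primes Nat.prime_two hq.out).2 (Ne.symm hq2)
  have h8 : orderOf x ∣ 1 := by
    rw [← Nat.Coprime.gcd_eq_one h7]; exact Nat.dvd_gcd h5 h6
  exact hx1 (orderOf_eq_one_iff.1 (Nat.dvd_one.1 h8))

theorem sylow_two_normal_sub (h : ∀ P : Sylow 2 G, (P : Subgroup G).Normal) (M : Subgroup G) :
    ∀ P : Sylow 2 M, (P : Subgroup M).Normal := by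
  haveI : Fact (Nat.Prime 2) := ⟨Nat.prime_two⟩
  intro P
  obtain ⟨S⟩ : Nonempty (Sylow 2 G) := inferInstance
  have hSn := h S
  have h1 : (P : Subgroup M).map M.subtype ≤ S := by
    obtain ⟨y, _, hy⟩ := (Sylow.isSylIn_top S).exists_cj_le le_top (P.2.map M.subtype)
    rw [cj_le_iff] at hy
    have h4 : cj y⁻¹ (S : Subgroup G) = S := by
      rw [← mem_normalizer_cj, Subgroup.normalizer_eq_top]; exact mem_top _
    rwa [h4] at hy
  have h2 : (P : Subgroup M) ≤ (S : Subgroup G).subgroupOf M := Subgroup.map_le_iff_le_comap.1 h1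
  have h3 : (S : Subgroup G).subgroupOf M = P := P.3 (H18.isPGroup_subgroupOf S.2) h2
  rw [← h3]
  infer_instance

/-- if no element of odd prime power order is inverted then `G` is `2`-closed -/
theorem sylow_two_normal_of_ni (h : ∀ (q : ℕ) [Fact q.Prime], q ≠ 2 → NIOf q (⊤ : Subgroup G)) :
    ∀ P : Sylow 2 G, (P : Subgroup G).Normal := by
  haveI : Fact (Nat.Prime 2) := ⟨Nat.prime_two⟩
  obtain ⟨O, hO⟩ : ∃ O, O = pCore 2 G := ⟨_, rfl⟩
  haveI hOn : O.Normal := by rw [hO]; infer_instance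
  have hcore : pCore 2 (G ⧸ O) = ⊥ := by subst hO; exact H18.pCore_quotient_pCore
  have hOp : IsPGroup 2 O := by rw [hO]; exact H18.isPGroup_pCore 2 G
  have h' : ∀ (q : ℕ) [Fact q.Prime], q ≠ 2 → NIOf q (⊤ : Subgroup (G ⧸ O)) := by
    intro q _ hq2
    have := (h q hq2).map hq2 (QuotientGroup.mk' O)
    rwa [← MonoidHom.range_eq_map, QuotientGroup.range_mk'] at this
  have hodd : ¬ 2 ∣ Nat.card (G ⧸ O) := by
    intro h2
    obtain ⟨t, ht⟩ := exists_prime_orderOf_dvd_card' 2 h2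
    have ht2 : t * t = 1 := by rw [← pow_two, ← ht]; exact pow_orderOf_eq_one _
    have hti : t⁻¹ = t := inv_eq_of_mul_eq_one_left ht2
    have hX : IsPGroup 2 (zpowers t) := isPGroup_zpowers (k := 1) (by rw [pow_one, ← ht]; exact pow_orderOf_eq_one _)
    have key : zpowers t ≤ pCore 2 (G ⧸ O) := by
      suffices hsuff : ∃ N : Subgroup (G ⧸ O), N.Normal ∧ IsPGroup 2 N ∧ zpowers t ≤ N by
        obtain ⟨N, hN1, hN2, hN3⟩ := hsuff
        exact hN3.trans (H18.le_pCore hN1 hN2)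
      apply baer_suzuki
      intro g
      obtain ⟨s, hs⟩ : ∃ s, s = g * t * g⁻¹ := ⟨_, rfl⟩
      have hs2 : s * s = 1 := by
        rw [hs]
        calc g * t * g⁻¹ * (g * t * g⁻¹) = g * (t * t) * g⁻¹ := by group
          _ = 1 := by rw [ht2]; group
      have hsi : s⁻¹ = s := inv_eq_of_mul_eq_one_left hs2
      obtain ⟨z, hz⟩ : ∃ z, z = t * s := ⟨_, rfl⟩
      have htz : t * z * t⁻¹ = z⁻¹ := by
        rw [hz, mul_inv_rev, hsi, hti, ← mul_assoc, ht2, one_mul]
      have hpow : ∀ m : ℕ, t * z ^ m * t⁻¹ = (z ^ m)⁻¹ := by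
        intro m; rw [← conj_pow, htz, inv_pow]
      -- `z` is a `2`-element
      have hz2 : ∃ n : ℕ, orderOf z = 2 ^ n := by
        by_contra hcon
        obtain ⟨q, hq, hqd, hq2⟩ : ∃ q, Nat.Prime q ∧ q ∣ orderOf z ∧ q ≠ 2 := by
          by_contra hc
          push Not at hc
          apply hcon
          refine ⟨(orderOf z).factorization 2, ?_⟩
          have := Nat.eq_prime_pow_of_unique_prime_dvd (orderOf_pos z).ne'
            (fun {d} hd hdd => hc d hd hdd)
          rw [this, Nat.factorization_pow]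
          simp [Nat.prime_two.factorization]
        haveI : Fact q.Prime := ⟨hq⟩
        obtain ⟨m, hm⟩ := hqd
        have h3 : orderOf (z ^ m) = q := by
          rw [orderOf_pow' z (by rintro rfl; rw [mul_zero] at hm; exact (orderOf_pos z).ne' hm), hm,
            Nat.gcd_eq_right (Dvd.intro_left _ rfl)]
          exact Nat.mul_div_cancel _ (Nat.pos_of_ne_zero (by
            rintro rfl; rw [mul_zero] at hm; exact (orderOf_pos z).ne' hm))
        refine h' q hq2 (z ^ m) (mem_top _) ⟨1, ?_⟩ ?_ t (mem_top _) (hpow m)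
        · rw [pow_one, ← h3]; exact pow_orderOf_eq_one _
        · intro h4
          rw [h4, orderOf_one] at h3
          exact hq.one_lt.ne h3
      obtain ⟨n, hn⟩ := hz2
      have hZ : IsPGroup 2 (zpowers z) := isPGroup_zpowers (k := n) (by rw [← hn]; exact pow_orderOf_eq_one _)
      have h3 : IsPGroup 2 (zpowers t ⊔ zpowers z : Subgroup (G ⧸ O)) := by
        apply H18.isPGroup_sup_of_le_normalizer hX hZ
        rw [zpowers_le, mem_normalizer_cj]
        apply Subgroup.eq_of_le_of_card_ge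
        · rintro _ ⟨y, ⟨n, rfl⟩, rfl⟩
          show t * z ^ n * t⁻¹ ∈ zpowers z
          rw [← conj_zpow, htz]
          exact zpow_mem (inv_mem (mem_zpowers _)) n
        · rw [card_cj]
      apply h3.to_le
      apply sup_le le_sup_left
      rw [MonoidHom.map_zpowers, zpowers_le]
      have h4 : (MulAut.conj g).toMonoidHom t = t * z := by
        rw [hz, ← mul_assoc, ht2, one_mul, hs]; rfl
      rw [h4]
      exact mul_mem ((le_sup_left : zpowers t ≤ _) (mem_zpowers t))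
        ((le_sup_right : zpowers z ≤ _) (mem_zpowers z))
    rw [hcore, le_bot_iff, zpowers_eq_bot] at key
    rw [key, orderOf_one] at ht
    omega
  intro P
  have hOP : O ≤ P := by rw [hO]; exact H18.pCore_le_sylow P
  have h1 : IsPGroup 2 ((P : Subgroup G).map (QuotientGroup.mk' O)) := P.2.map _
  have h2 : (P : Subgroup G).map (QuotientGroup.mk' O) = ⊥ := by
    rw [← Subgroup.card_eq_one]
    obtain ⟨n, hn⟩ := h1.exists_card_eq
    rw [hn]
    rcases Nat.eq_zero_or_pos n with h4 | h4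
    · rw [h4, pow_zero]
    · exfalso
      apply hodd
      have h3 : 2 ^ n ∣ Nat.card (G ⧸ O) := by rw [← hn]; exact Subgroup.card_subgroup_dvd_card _
      exact (dvd_pow_self 2 h4.ne').trans h3
  have h3 : (P : Subgroup G) = O := by
    apply le_antisymm _ hOP
    rw [Subgroup.map_eq_bot_iff, QuotientGroup.ker_mk'] at h2
    exact h2
  rw [h3]
  exact hOn

theorem cq_of_forall {q : ℕ} [hq : Fact q.Prime]
    (h : ∀ T : Sylow q G, ∀ x ∈ (T : Subgroup G), x ≠ 1 →
      ∀ g ∈ normalizer (centerThompsonAOf (T : Subgroup G) : Set G), g * x * g⁻¹ ≠ x⁻¹) : CQ q G := by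
  intro T x hx hk hx1 g hg heq
  obtain ⟨k, hk⟩ := hk
  obtain ⟨y, hy, hyx⟩ := (Sylow.isSylIn_of_le T (le_NZ (T : Subgroup G))).exists_cj_le
    (by rwa [zpowers_le]) (isPGroup_zpowers hk)
  have h1 : y * x * y⁻¹ ∈ (T : Subgroup G) := by
    apply hyx
    rw [conj_mem_cj]; exact mem_zpowers x
  refine h T _ h1 ?_ (y * g * y⁻¹) ?_ ?_
  · intro h2
    apply hx1
    have : x = y⁻¹ * (y * x * y⁻¹) * y := by group
    rw [this, h2]; group
  · rw [centerThompsonAOf_eq]
    exact mul_mem (mul_mem hy hg) (inv_mem hy)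
  · calc y * g * y⁻¹ * (y * x * y⁻¹) * (y * g * y⁻¹)⁻¹ = y * (g * x * g⁻¹) * y⁻¹ := by group
      _ = (y * x * y⁻¹)⁻¹ := by rw [heq]; group

end Cfsg.Agent.H4
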