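import Cfsg.Agent.H4.DihFus3

set_option autoImplicit false
set_option linter.style.haveILetI false
set_option linter.unusedSectionVars false
set_option linter.unusedVariables false

/-! Four-groups of dihedral and quasi-dihedral groups are self-centralizing. -/

namespace Cfsg.Agent.H4

open Cfsg H14

section
variable {S : Type*} [Group S]

theorem DR.K_centralizer {n : ℕ} {x y : S} (h : DR S (2 * n) x y) (k : ℤ) :
    Subgroup.centralizer (h.K k : Set S) ≤ h.K k := by
  intro c hc
  have h1 := Subgroup.mem_centralizer_iff.1 hc (x ^ k * y) (h.mem_K.2 (Or.inr (Or.inr (Or.inl rfl))))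
  rcases h.cov c with ⟨j, rfl⟩ | ⟨j, rfl⟩
  · rw [h.refl_mul_zpow, h.zpow_mul_refl, h.refl_eq] at h1
    obtain ⟨l, hl⟩ := h1
    have h2 : x ^ j * x ^ j = 1 := by
      rw [← zpow_add, h.zpow_eq_one_iff]
      exact ⟨-l, by linear_combination -hl⟩
    rcases h.rot_inv h2 with h3 | h3
    · rw [h3]; exact one_mem _
    · rw [h3]; exact h.mem_K.2 (Or.inr (Or.inl rfl))
  · rw [h.refl_mul_refl, h.refl_mul_refl, h.zpow_eq] at h1
    obtain ⟨l, hl⟩ := h1
    have h2 : x ^ (j - k) * x ^ (j - k) = 1 := by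
      rw [← zpow_add, h.zpow_eq_one_iff]
      exact ⟨-l, by linear_combination -hl⟩
    have h4 : x ^ j * y = x ^ (j - k) * (x ^ k * y) := by
      rw [h.zpow_mul_refl]; congr 2; ring
    rw [h4]
    refine mul_mem ?_ (h.mem_K.2 (Or.inr (Or.inr (Or.inl rfl))))
    rcases h.rot_inv h2 with h3 | h3
    · rw [h3]; exact one_mem _
    · rw [h3]; exact h.mem_K.2 (Or.inr (Or.inl rfl))

theorem DR.klein_centralizer {m : ℕ} {x y : S} (h : DR S m x y) {T : Subgroup S} (hT : IsKleinFour T) :
    Subgroup.centralizer (T : Set S) ≤ T := by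
  haveI := h.finite
  have h1 : Nat.card T ∣ Nat.card S := Subgroup.card_subgroup_dvd_card T
  rw [hT.card_four, h.card] at h1
  obtain ⟨l, hl⟩ := h1
  have h2 : m = 2 * l := by omega
  subst h2
  obtain ⟨k, rfl⟩ := h.klein_struct hT
  exact h.K_centralizer k

theorem QD.klein_centralizer {e : ℕ} {x y z : S} (h : QD S e x y z) {T : Subgroup S} (hT : IsKleinFour T) :
    Subgroup.centralizer (T : Set S) ≤ T := by
  obtain ⟨m, hm⟩ := h.klein_struct hT
  rw [hm]
  exact (h.replace_y m).four_centralizer.le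

/-- a four-group of a dihedral or quasi-dihedral group is self-centralizing -/
theorem klein_self_centralizing (hq : (∃ m : ℕ, 2 ≤ m ∧ Nonempty (S ≃* DihedralGroup m)) ∨ Cfsg.IsQuasiDihedral S)
    {T : Subgroup S} (hT : IsKleinFour T) : Subgroup.centralizer (T : Set S) ≤ T := by
  rcases hq with ⟨m, hm, ⟨e⟩⟩ | hq
  · obtain ⟨x, y, h⟩ := exists_DR hm e
    exact h.klein_centralizer hT
  · obtain ⟨k, x, y, z, h⟩ := exists_QD hq
    exact h.klein_centralizer hT

end

end Cfsg.Agent.H4
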