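import Cfsg.Agent.H4.QDih3

set_option autoImplicit false
set_option linter.unusedVariables false
set_option linter.unusedSectionVars false
set_option linter.style.haveILetI false
open Cfsg

namespace Cfsg.Agent.H4

/-- In a finite group containing an elementary abelian subgroup of order 8 the number of solutions of `x² = 1` is
divisible by 4. -/
theorem four_dvd_card_sq {S : Type*} [Group S] [Finite S] {E : Subgroup S} (hE : Nat.card E = 8)
    (hE2 : ∀ e ∈ E, e * e = 1) : 4 ∣ Nat.card {x : S // x * x = 1} := by
  classical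
  haveI := Fintype.ofFinite S
  have hcomm : ∀ a ∈ E, ∀ b ∈ E, a * b = b * a := by
    intro a ha b hb
    have h1 := hE2 _ (mul_mem ha hb)
    have ha1 := inv_eq_self_of_mul_self (hE2 a ha)
    have hb1 := inv_eq_self_of_mul_self (hE2 b hb)
    have h2 := inv_eq_self_of_mul_self h1
    rw [mul_inv_rev, ha1, hb1] at h2
    exact h2.symm
  set X : Finset S := Finset.univ.filter (fun x => x * x = 1) with hX
  have hmX : ∀ x, x ∈ X ↔ x * x = 1 := by intro x; simp [hX]
  have hXc : Nat.card {x : S // x * x = 1} = X.card := by
    rw [Nat.card_eq_fintype_card, Fintype.card_subtype]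
  let C : S → Subgroup S := fun x => E ⊓ Subgroup.centralizer {x}
  have hC : ∀ x c, c ∈ C x ↔ c ∈ E ∧ c * x = x * c := by
    intro x c
    show c ∈ E ⊓ Subgroup.centralizer {x} ↔ _
    rw [Subgroup.mem_inf, Subgroup.mem_centralizer_singleton_iff]
  let cls : S → Finset S := fun x => if 4 ≤ Nat.card (C x) then Finset.univ.filter (fun y => ∃ c ∈ C x, y = x * c)
    else Finset.univ.filter (fun y => ∃ c ∈ E, y = c * x * c⁻¹)
  have hself : ∀ x, x ∈ cls x := by
    intro x
    by_cases h4 : 4 ≤ Nat.card (C x)
    · simp only [cls, h4, if_true, Finset.mem_filter, Finset.mem_univ, true_and]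
      exact ⟨1, one_mem _, by simp⟩
    · simp only [cls, h4, if_false, Finset.mem_filter, Finset.mem_univ, true_and]
      exact ⟨1, one_mem _, by simp⟩
  have hC1 : ∀ x c, c ∈ C x → C (x * c) = C x := by
    intro x c hc
    ext d
    rw [hC, hC]
    have hc' := (hC _ _).1 hc
    refine and_congr_right fun hd => ?_
    have h1 : d * c = c * d := hcomm d hd c hc'.1
    constructor
    · intro h
      have h2 : d * x * c = x * d * c := by rw [mul_assoc, h, mul_assoc, mul_assoc, h1]
      exact mul_right_cancel h2
    · intro h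
      rw [← mul_assoc, h, mul_assoc, mul_assoc, h1]
  have hC2 : ∀ x e, e ∈ E → C (e * x * e⁻¹) = C x := by
    intro x e he
    ext d
    rw [hC, hC]
    refine and_congr_right fun hd => ?_
    have h1 : d * e = e * d := hcomm d hd e he
    have h2 : e⁻¹ * d = d * e⁻¹ := by rw [← mul_right_inj e, ← mul_left_inj e]; simp [mul_assoc, h1]
    have h3 : d * (e * x * e⁻¹) = e * (d * x) * e⁻¹ := by
      rw [← mul_assoc, ← mul_assoc, h1, mul_assoc e d x]
    have h4 : e * x * e⁻¹ * d = e * (x * d) * e⁻¹ := by
      rw [mul_assoc _ _ d, h2]; group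
    rw [h3, h4]
    constructor
    · intro h; exact mul_left_cancel (mul_right_cancel h)
    · intro h; rw [h]
  have hcls : ∀ x y, y ∈ cls x → cls y = cls x := by
    intro x y hy
    by_cases h4 : 4 ≤ Nat.card (C x)
    · simp only [cls, h4, if_true, Finset.mem_filter, Finset.mem_univ, true_and] at hy
      obtain ⟨c, hc, rfl⟩ := hy
      simp only [cls, hC1 x c hc, h4, if_true]
      ext w
      simp only [Finset.mem_filter, Finset.mem_univ, true_and]
      constructor
      · rintro ⟨d, hd, rfl⟩; exact ⟨c * d, mul_mem hc hd, by group⟩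
      · rintro ⟨d, hd, rfl⟩; exact ⟨c⁻¹ * d, mul_mem (inv_mem hc) hd, by group⟩
    · simp only [cls, h4, if_false, Finset.mem_filter, Finset.mem_univ, true_and] at hy
      obtain ⟨c, hc, rfl⟩ := hy
      simp only [cls, hC2 x c hc, h4, if_false]
      ext w
      simp only [Finset.mem_filter, Finset.mem_univ, true_and]
      constructor
      · rintro ⟨d, hd, rfl⟩; exact ⟨d * c, mul_mem hd hc, by group⟩
      · rintro ⟨d, hd, rfl⟩; exact ⟨d * c⁻¹, mul_mem hd (inv_mem hc), by group⟩
  have hsub : ∀ x ∈ X, cls x ⊆ X := by
    intro x hx y hy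
    rw [hmX] at hx ⊢
    by_cases h4 : 4 ≤ Nat.card (C x)
    · simp only [cls, h4, if_true, Finset.mem_filter, Finset.mem_univ, true_and] at hy
      obtain ⟨c, hc, rfl⟩ := hy
      have hc' := (hC _ _).1 hc
      have : x * c * (x * c) = (x * x) * (c * c) := by
        rw [mul_assoc, ← mul_assoc c x c, hc'.2]; group
      rw [this, hx, hE2 c hc'.1, one_mul]
    · simp only [cls, h4, if_false, Finset.mem_filter, Finset.mem_univ, true_and] at hy
      obtain ⟨c, hc, rfl⟩ := hy
      have : c * x * c⁻¹ * (c * x * c⁻¹) = c * (x * x) * c⁻¹ := by group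
      rw [this, hx]; group
  have hle : ∀ x, C x ≤ E := fun x => inf_le_left
  have hcardC : ∀ x, Nat.card (C x) = 1 ∨ Nat.card (C x) = 2 ∨ Nat.card (C x) = 4 ∨ Nat.card (C x) = 8 := by
    intro x
    have h1 : Nat.card (C x) ∣ 2 ^ 3 := by
      have := Subgroup.card_dvd_of_le (hle x)
      rw [hE] at this; exact this
    obtain ⟨k, hk, hk2⟩ := (Nat.dvd_prime_pow Nat.prime_two).1 h1
    rw [hk2]
    interval_cases k <;> simp
  have hdvd : ∀ x ∈ X, 4 ∣ (cls x).card := by
    intro x hx
    by_cases h4 : 4 ≤ Nat.card (C x)
    · have h1 : (cls x).card = Nat.card (C x) := by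
        have h0 : Nat.card (C x) = (C x : Set S).toFinset.card := Nat.card_eq_card_toFinset (C x : Set S)
        rw [h0]
        simp only [cls, h4, if_true]
        apply Finset.card_bij' (fun y _ => x⁻¹ * y) (fun c _ => x * c)
        · intro a ha
          simp only [Finset.mem_filter, Finset.mem_univ, true_and] at ha
          obtain ⟨c, hc, rfl⟩ := ha
          simpa using hc
        · intro a ha
          simp only [Finset.mem_filter, Finset.mem_univ, true_and]
          exact ⟨a, by simpa using ha, rfl⟩
        · intro a _; simp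
        · intro a _; simp
      rw [h1]
      rcases hcardC x with h | h | h | h <;> omega
    · -- the orbit
      have h1 : (cls x).card * Nat.card (C x) = 8 := by
        have h2 : (cls x).card = Nat.card (E ⧸ (C x).subgroupOf E) := by
          have : (cls x).card = Nat.card (cls x : Set S) := by simp
          rw [this]
          symm
          apply Nat.card_congr
          refine Equiv.ofBijective (Quotient.lift (fun e : E => (⟨(e : S) * x * (e : S)⁻¹, ?_⟩ : (cls x : Set S))) ?_) ⟨?_, ?_⟩
          · simp only [cls, h4, if_false, Finset.coe_filter, Finset.mem_univ, true_and]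
            exact ⟨e, e.2, rfl⟩
          · intro a b hab
            have hab' := QuotientGroup.leftRel_apply.1 hab
            rw [Subgroup.mem_subgroupOf, hC] at hab'
            have h3 : (a : S)⁻¹ * b * x = x * ((a : S)⁻¹ * b) := hab'.2
            apply Subtype.ext
            show (a : S) * x * (a : S)⁻¹ = (b : S) * x * (b : S)⁻¹
            have h5 : (b : S) * x * (b : S)⁻¹ = a * ((a : S)⁻¹ * b * x) * (b : S)⁻¹ := by group
            rw [h5, h3]; group
          · rintro ⟨a⟩ ⟨b⟩ hab
            have h5 : (a : S) * x * (a : S)⁻¹ = (b : S) * x * (b : S)⁻¹ := congrArg Subtype.val hab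
            apply Quotient.sound
            apply QuotientGroup.leftRel_apply.2
            rw [Subgroup.mem_subgroupOf, hC]
            refine ⟨(a⁻¹ * b).2, ?_⟩
            show (a : S)⁻¹ * b * x = x * ((a : S)⁻¹ * b)
            have h6 : (a : S)⁻¹ * b * x = (a : S)⁻¹ * ((b : S) * x * (b : S)⁻¹) * b := by group
            rw [h6, ← h5]; group
          · rintro ⟨y, hy⟩
            have hy' := hy
            simp only [cls, h4, if_false, Finset.coe_filter, Finset.mem_univ, true_and] at hy'
            obtain ⟨e, he, he2⟩ := hy'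
            exact ⟨Quotient.mk _ ⟨e, he⟩, Subtype.ext he2.symm⟩
        have h3 := ((C x).subgroupOf E).card_eq_card_quotient_mul_card_subgroup
        rw [hE, ← h2, Nat.card_congr (Subgroup.subgroupOfEquivOfLe (hle x)).toEquiv] at h3
        exact h3.symm
      rcases hcardC x with h | h | h | h <;> rw [h] at h1 h4 <;> omega
  rw [hXc, Finset.card_eq_sum_card_image cls X]
  apply Finset.dvd_sum
  intro b hb
  obtain ⟨x, hx, rfl⟩ := Finset.mem_image.1 hb
  have : (X.filter (fun a => cls a = cls x)) = cls x := by
    ext a
    rw [Finset.mem_filter]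
    constructor
    · rintro ⟨_, h⟩; rw [← h]; exact hself a
    · intro h; exact ⟨hsub x hx h, hcls x a h⟩
  rw [this]
  exact hdvd x hx

/-- A 2-group containing an elementary abelian subgroup of order 8 has a normal four-subgroup. -/
theorem exists_normal_klein {S : Type*} [Group S] [Finite S] (hS : IsPGroup 2 S) {E : Subgroup S}
    (hE : Nat.card E = 8) (hE2 : ∀ e ∈ E, e * e = 1) :
    ∃ z a : S, z * z = 1 ∧ z ≠ 1 ∧ z ∈ Subgroup.center S ∧ a * a = 1 ∧ a ≠ 1 ∧ a ≠ z ∧
      ∀ s : S, s * a * s⁻¹ = a ∨ s * a * s⁻¹ = a * z := by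
  classical
  haveI : Fact (Nat.Prime 2) := ⟨Nat.prime_two⟩
  haveI : Nontrivial S := by
    obtain ⟨e, he⟩ : ∃ e : E, e ≠ 1 := by
      haveI : Nontrivial E := by
        rw [← Finite.one_lt_card_iff_nontrivial, hE]; norm_num
      exact exists_ne 1
    exact ⟨e, 1, fun h => he (Subtype.ext h)⟩
  haveI : Nontrivial (Subgroup.center S) := hS.center_nontrivial
  have h2 : 2 ∣ Nat.card (Subgroup.center S) := by
    obtain ⟨n, hn0, hn⟩ := (hS.to_subgroup (Subgroup.center S)).nontrivial_iff_card.mp inferInstance
    rw [hn]; exact dvd_pow_self _ (ne_of_gt hn0)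
  obtain ⟨⟨z, hzc⟩, hz⟩ := exists_prime_orderOf_dvd_card' (G := Subgroup.center S) 2 h2
  rw [Subgroup.orderOf_mk] at hz
  have hzz : z * z = 1 := mul_self_of_orderOf_two hz
  have hz1 : z ≠ 1 := by rintro rfl; rw [orderOf_one] at hz; omega
  have hzcomm : ∀ s : S, s * z = z * s := fun s => Subgroup.mem_center_iff.1 hzc s
  -- the set of classes mod z of solutions
  let α := {p : Finset S // ∃ x : S, x * x = 1 ∧ p = {x, x * z}}
  haveI : Finite α := by
    haveI : Finite (Finset S) := by haveI := Fintype.ofFinite S; infer_instance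
    infer_instance
  letI : MulAction S α :=
    { smul := fun s p => ⟨p.1.image (fun x => s * x * s⁻¹), by
        obtain ⟨x, hx, hp⟩ := p.2
        refine ⟨s * x * s⁻¹, ?_, ?_⟩
        · have : s * x * s⁻¹ * (s * x * s⁻¹) = s * (x * x) * s⁻¹ := by group
          rw [this, hx]; group
        · rw [hp, Finset.image_insert, Finset.image_singleton]
          congr 2
          rw [← mul_assoc, mul_assoc _ z, ← hzcomm s⁻¹]; group⟩
      one_smul := by
        intro p; apply Subtype.ext
        show p.1.image (fun x => 1 * x * (1 : S)⁻¹) = p.1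
        simp
      mul_smul := by
        intro s t p; apply Subtype.ext
        show p.1.image (fun x => s * t * x * (s * t)⁻¹) = (p.1.image (fun x => t * x * t⁻¹)).image (fun x => s * x * s⁻¹)
        rw [Finset.image_image]
        congr 1
        funext x
        simp only [Function.comp]
        group }
  have hsmul : ∀ (s : S) (p : α), (s • p).1 = p.1.image (fun x => s * x * s⁻¹) := fun _ _ => rfl
  -- the count
  have hcount : Nat.card {x : S // x * x = 1} = 2 * Nat.card α := by
    haveI := Fintype.ofFinite S
    let X : Finset S := Finset.univ.filter (fun x => x * x = 1)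
    let cl : S → Finset S := fun x => {x, x * z}
    have h1 : Nat.card {x : S // x * x = 1} = X.card := by
      rw [Nat.card_eq_fintype_card, Fintype.card_subtype]
    have h3 : Nat.card α = (X.image cl).card := by
      have : (X.image cl).card = Nat.card {p : Finset S // p ∈ X.image cl} := by
        rw [Nat.card_eq_fintype_card, Fintype.card_coe]
      rw [this]
      apply Nat.card_congr
      apply Equiv.subtypeEquivRight
      intro p
      rw [Finset.mem_image]
      constructor
      · rintro ⟨x, hx, rfl⟩; exact ⟨x, by simp [X, hx], rfl⟩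
      · rintro ⟨x, hx, rfl⟩; exact ⟨x, by simpa [X] using hx, rfl⟩
    rw [h1, h3, Finset.card_eq_sum_card_image cl X, mul_comm]
    apply Finset.sum_const_nat
    intro p hp
    obtain ⟨x, hx, rfl⟩ := Finset.mem_image.1 hp
    have hx' : x * x = 1 := by simpa [X] using hx
    have hxz : x ≠ x * z := fun h => hz1 (by simpa using h.symm)
    have : X.filter (fun a => cl a = cl x) = {x, x * z} := by
      ext a
      simp only [Finset.mem_filter, Finset.mem_univ, true_and, X, cl, Finset.mem_insert, Finset.mem_singleton]
      constructor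
      · rintro ⟨_, h⟩
        have : a ∈ ({x, x * z} : Finset S) := by rw [← h]; simp
        simpa using this
      · rintro (rfl | rfl)
        · exact ⟨hx', rfl⟩
        · refine ⟨?_, ?_⟩
          · rw [mul_assoc, ← mul_assoc z, ← hzcomm x, mul_assoc x z z, hzz, mul_one, hx']
          · rw [mul_assoc, hzz, mul_one]; exact Finset.pair_comm _ _
    rw [this, Finset.card_pair hxz]
  have h4 := four_dvd_card_sq hE hE2
  rw [hcount] at h4
  have h2α : 2 ∣ Nat.card α := by omega
  let a0 : α := ⟨{1, 1 * z}, 1, by simp, rfl⟩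
  have ha0 : a0 ∈ MulAction.fixedPoints S α := by
    intro s
    apply Subtype.ext
    rw [hsmul]
    show ({1, 1 * z} : Finset S).image _ = {1, 1 * z}
    rw [Finset.image_insert, Finset.image_singleton]
    congr 2
    · group
    · rw [one_mul, hzcomm]; group
  obtain ⟨b, hb, hab⟩ := hS.exists_fixed_point_of_prime_dvd_card_of_fixed_point α h2α ha0
  obtain ⟨a, ha, hba⟩ := b.2
  refine ⟨z, a, hzz, hz1, hzc, ha, ?_, ?_, ?_⟩
  · rintro rfl
    exact hab (Subtype.ext hba.symm)
  · rintro rfl
    apply hab
    apply Subtype.ext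
    rw [hba, hzz]
    show ({1, 1 * a} : Finset S) = _
    rw [one_mul]; exact Finset.pair_comm _ _
  · intro s
    have h1 := congrArg Subtype.val (hb s)
    rw [hsmul, hba] at h1
    have h3 : s * a * s⁻¹ ∈ ({a, a * z} : Finset S) := by
      rw [← h1]
      exact Finset.mem_image.2 ⟨a, by simp, rfl⟩
    simpa using h3

end Cfsg.Agent.H4
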