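import Cfsg.Agent.H4.FusHom
import Cfsg.Agent.H4.KleinSylow
import Cfsg.Agent.H4.Basic2

set_option autoImplicit false
set_option linter.style.haveILetI false
set_option linter.unusedSectionVars false
set_option linter.unusedVariables false

/-! Norm maps for abelian Sylow subgroups. -/

namespace Cfsg.Agent.H4

open Cfsg

section
variable {A : Type*} [CommGroup A] [Finite A] (Γ : Subgroup (MulAut A))

open Classical in
/-- the norm map of a finite group of automorphisms -/
noncomputable def normMap : A →* A :=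
  letI := Fintype.ofFinite Γ
  { toFun := fun a => ∏ γ : Γ, (γ : MulAut A) a
    map_one' := by simp
    map_mul' := by intro a b; simp [Finset.prod_mul_distrib] }

theorem normMap_fix {γ : MulAut A} (hγ : γ ∈ Γ) (a : A) : normMap Γ (γ a) = normMap Γ a := by
  classical
  letI := Fintype.ofFinite Γ
  show ∏ δ : Γ, (δ : MulAut A) (γ a) = ∏ δ : Γ, (δ : MulAut A) a
  exact Fintype.prod_equiv (Equiv.mulRight (⟨γ, hγ⟩ : Γ)) _ _ (fun δ => rfl)

theorem prod_mem_index_two {ι : Type*} {Ω Ω₀ : Subgroup A}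
    (h2 : ∀ a ∈ Ω, ∀ b ∈ Ω, a ∉ Ω₀ → b ∉ Ω₀ → a * b ∈ Ω₀) (f : ι → A) (hf : ∀ i, f i ∈ Ω ∧ f i ∉ Ω₀) (F : Finset ι) :
    ∏ i ∈ F, f i ∈ Ω ∧ (∏ i ∈ F, f i ∈ Ω₀ ↔ Even F.card) := by
  classical
  induction F using Finset.induction_on with
  | empty => simp
  | insert a F ha ih =>
    rw [Finset.prod_insert ha, Finset.card_insert_of_notMem ha]
    refine ⟨mul_mem (hf a).1 ih.1, ?_⟩
    rw [Nat.even_add_one, ← ih.2]
    constructor
    · intro h1 h3
      exact (hf a).2 ((Ω₀.mul_mem_cancel_right h3).1 h1)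
    · intro h3
      exact h2 _ (hf a).1 _ ih.1 (hf a).2 h3

theorem normMap_notMem {Ω Ω₀ : Subgroup A} (h2 : ∀ a ∈ Ω, ∀ b ∈ Ω, a ∉ Ω₀ → b ∉ Ω₀ → a * b ∈ Ω₀)
    (hodd : Odd (Nat.card Γ)) {t : A} (ht : ∀ γ ∈ Γ, γ t ∈ Ω ∧ γ t ∉ Ω₀) : normMap Γ t ∉ Ω₀ := by
  classical
  letI := Fintype.ofFinite Γ
  intro h
  have h1 := (prod_mem_index_two h2 (fun γ : Γ => (γ : MulAut A) t) (fun γ => ht γ γ.2) Finset.univ).2.1 h
  rw [Finset.card_univ, ← Nat.card_eq_fintype_card] at h1
  exact (Nat.not_even_iff_odd.2 hodd) h1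

theorem normMap_of_fixed {t : A} (ht : ∀ γ ∈ Γ, γ t = t) : normMap Γ t = t ^ Nat.card Γ := by
  classical
  letI := Fintype.ofFinite Γ
  show ∏ γ : Γ, (γ : MulAut A) t = _
  have h1 : ∀ γ ∈ (Finset.univ : Finset Γ), (γ : MulAut A) t = t := fun γ _ => ht (γ : MulAut A) γ.2
  rw [Finset.prod_congr rfl h1, Finset.prod_const, Finset.card_univ, ← Nat.card_eq_fintype_card]

end

section
variable {G : Type*} [Group G] [Finite G] {p : ℕ} [Fact p.Prime] (P : Sylow p G)

theorem card_range_dvd (hab : ∀ a b : (P : Subgroup G), a * b = b * a) :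
    Nat.card (P : Subgroup G).normalizerMonoidHom.range ∣ (P : Subgroup G).index := by
  rw [← Subgroup.index_ker, Subgroup.normalizerMonoidHom_ker]
  have h1 : (P : Subgroup G) ≤ Subgroup.centralizer ((P : Subgroup G) : Set G) := by
    intro a ha
    rw [Subgroup.mem_centralizer_iff]
    intro b hb
    exact congrArg Subtype.val (hab ⟨b, hb⟩ ⟨a, ha⟩)
  have h2 : (Subgroup.centralizer ((P : Subgroup G) : Set G)).relIndex (Subgroup.normalizer ((P : Subgroup G) : Set G)) ∣
      (P : Subgroup G).relIndex (Subgroup.normalizer ((P : Subgroup G) : Set G)) :=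
    Subgroup.relIndex_dvd_of_le_left _ h1
  refine dvd_trans h2 ?_
  rw [← Subgroup.relIndex_mul_index (Subgroup.le_normalizer (H := (P : Subgroup G)))]
  exact dvd_mul_right _ _

theorem not_dvd_card_range (hab : ∀ a b : (P : Subgroup G), a * b = b * a) :
    ¬ p ∣ Nat.card (P : Subgroup G).normalizerMonoidHom.range := fun h =>
  P.not_dvd_index (h.trans (card_range_dvd P hab))

/-- the commutative group structure -/
abbrev commGroupOf {A : Type*} [Group A] (hab : ∀ a b : A, a * b = b * a) : CommGroup A :=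
  { (inferInstance : Group A) with mul_comm := hab }

theorem exists_normal_of_norm (hab : ∀ a b : (P : Subgroup G), a * b = b * a)
    (t : (P : Subgroup G)) (ht : letI := commGroupOf hab; normMap (P : Subgroup G).normalizerMonoidHom.range t ≠ 1) :
    ∃ (K : Subgroup G) (k : ℕ), K.Normal ∧ 1 ≤ k ∧ K.index = p ^ k := by
  letI := commGroupOf hab
  set Γ := (P : Subgroup G).normalizerMonoidHom.range with hΓ
  have ht' : normMap Γ t ≠ 1 := ht
  set ν := (normMap Γ) with hν
  obtain ⟨K, hK, hi, -⟩ := exists_normal_of_fusion_hom P ν.rangeRestrict ν.rangeRestrict_surjective (by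
    intro a b h
    apply Subtype.ext
    show ν a = ν b
    obtain ⟨g, hg⟩ := isConj_iff.1 h
    haveI : IsMulCommutative (P : Subgroup G) := ⟨⟨hab⟩⟩
    obtain ⟨n, hn, h⟩ := P.conj_eq_normalizer_conj_of_mem (a : G) g⁻¹ a.2 (by rw [inv_inv, hg]; exact b.2)
    rw [inv_inv, hg] at h
    have h1 : b = (P : Subgroup G).normalizerMonoidHom (⟨n, hn⟩⁻¹) a := by
      apply Subtype.ext
      rw [h]
      show _ = n⁻¹ * (a : G) * n⁻¹⁻¹
      rw [inv_inv]
    rw [h1]
    exact (normMap_fix Γ ⟨_, rfl⟩ a).symm)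
  have hpg : IsPGroup p ν.range := by
    exact P.isPGroup'.to_subgroup ν.range
  obtain ⟨k, hk⟩ := IsPGroup.iff_card.1 hpg
  refine ⟨K, k, hK, ?_, by rw [hi, hk]⟩
  by_contra hcon
  have hk0 : k = 0 := by omega
  rw [hk0, pow_zero, Subgroup.card_eq_one] at hk
  apply ht'
  have : ν t ∈ ν.range := ⟨t, rfl⟩
  rw [hk] at this
  exact this

end

end Cfsg.Agent.H4
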