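import Cfsg.Agent.H14.TrMain
import Cfsg.Agent.H2.Residual

set_option autoImplicit false
set_option linter.style.haveILetI false
set_option linter.unusedSectionVars false
set_option linter.unusedVariables false

/-! Transfer into an abelian quotient of a subgroup of index prime to `p`. -/

namespace Cfsg.Agent.H4

open Cfsg

section
variable {G : Type*} [Group G] [Finite G] {p : ℕ} [Fact p.Prime]

/-- `p`-elements of `H` whose powers are only fused within cosets of `K`, and which are killed by every homomorphism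
of `G` to an abelian `p`-group `A`, lie in `K`. -/
theorem mem_of_transfer {H K : Subgroup G} {A : Type*} [CommGroup A] (ϕ : H →* A)
    (hker : ∀ x : H, ϕ x = 1 ↔ (x : G) ∈ K) (hidx : Nat.Coprime p H.index) {g : G} (hgH : g ∈ H)
    (hgp : ∃ k : ℕ, orderOf g = p ^ k)
    (hctrl : ∀ (m : ℕ) (a : G), a * g ^ m * a⁻¹ ∈ H → (a * g ^ m * a⁻¹) * (g ^ m)⁻¹ ∈ K)
    (h : MonoidHom.transfer ϕ g = 1) : g ∈ K := by
  have h1 := H14.transfer_eq_pow_of_conj ϕ ⟨g, hgH⟩ (by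
    intro k g₀ hk
    have h2 := hctrl k g₀⁻¹ (by rw [inv_inv]; exact hk)
    rw [inv_inv] at h2
    have h3 : ϕ (⟨g₀⁻¹ * g ^ k * g₀, hk⟩ * (⟨g, hgH⟩ ^ k)⁻¹) = 1 := (hker _).2 h2
    rw [map_mul, map_inv, map_pow, mul_inv_eq_one] at h3
    exact h3)
  rw [h] at h1
  obtain ⟨k, hk⟩ := hgp
  have h2 : ϕ ⟨g, hgH⟩ ^ p ^ k = 1 := by
    rw [← map_pow]
    have : (⟨g, hgH⟩ : H) ^ p ^ k = 1 := Subtype.ext (by
      show g ^ p ^ k = 1
      rw [← hk]; exact pow_orderOf_eq_one g)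
    rw [this, map_one]
  have h3 : orderOf (ϕ ⟨g, hgH⟩) = 1 := by
    apply Nat.eq_one_of_dvd_coprimes (Nat.Coprime.pow_left k hidx) (orderOf_dvd_of_pow_eq_one h2)
      (orderOf_dvd_of_pow_eq_one h1.symm)
  exact (hker _).1 (orderOf_eq_one_iff.1 h3)

theorem transfer_commutator {H : Subgroup G} {A : Type*} [CommGroup A] (ϕ : H →* A) {g : G} (hg : g ∈ commutator G) :
    MonoidHom.transfer ϕ g = 1 :=
  Abelianization.commutator_subset_ker (MonoidHom.transfer ϕ) hg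

end

universe u

/-- the quotient of a subgroup by a normal subgroup with abelian quotient -/
theorem exists_abelian_quotient {G : Type u} [Group G] (H K : Subgroup G) (hKn : (K.subgroupOf H).Normal)
    (hab : ∀ x ∈ H, ∀ y ∈ H, x * y * x⁻¹ * y⁻¹ ∈ K) :
    ∃ (A : Type u) (_ : CommGroup A) (ϕ : H →* A), Function.Surjective ϕ ∧ ∀ x : H, ϕ x = 1 ↔ (x : G) ∈ K := by
  letI : CommGroup (H ⧸ K.subgroupOf H) :=
    { (inferInstance : Group (H ⧸ K.subgroupOf H)) with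
      mul_comm := by
        rintro ⟨a⟩ ⟨b⟩
        refine QuotientGroup.eq.2 ?_
        have h1 := hab (b⁻¹ : H) (b⁻¹ : H).2 (a⁻¹ : H) (a⁻¹ : H).2
        rw [Subgroup.mem_subgroupOf]
        have e1 : (((a * b)⁻¹ * (b * a) : H) : G) = ((b⁻¹ : H) : G) * ((a⁻¹ : H) : G) * ((b⁻¹ : H) : G)⁻¹ * ((a⁻¹ : H) : G)⁻¹ := by
          push_cast; group
        rw [e1]; exact h1 }
  refine ⟨H ⧸ K.subgroupOf H, inferInstance, QuotientGroup.mk' (K.subgroupOf H), QuotientGroup.mk'_surjective _, fun x => ?_⟩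
  rw [← Subgroup.mem_subgroupOf, ← QuotientGroup.eq_one_iff]; rfl

/-- p-part and p'-part of an element -/
theorem exists_split_prime {G : Type*} [Group G] [Finite G] {p : ℕ} [hp : Fact p.Prime] (n : G) :
    ∃ a b : G, n = a * b ∧ a ∈ Subgroup.zpowers n ∧ b ∈ Subgroup.zpowers n ∧
    (∃ j : ℕ, orderOf a = p ^ j) ∧ (orderOf b).Coprime p := by
  obtain ⟨j, m, hm, hjm⟩ := Nat.exists_eq_pow_mul_and_not_dvd (orderOf_pos n).ne' p hp.out.ne_one
  have hcop' : (p ^ j).Coprime m := Nat.Coprime.pow_left j ((Nat.Prime.coprime_iff_not_dvd hp.out).2 hm)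
  have hcop : IsCoprime ((p ^ j : ℕ) : ℤ) ((m : ℕ) : ℤ) := by
    rw [Nat.isCoprime_iff_coprime]; exact hcop'
  obtain ⟨u, v, huv⟩ := hcop
  have hn : n ^ ((p ^ j : ℕ) * (m : ℕ) : ℤ) = 1 := by
    have := pow_orderOf_eq_one n
    rw [hjm] at this
    exact_mod_cast this
  refine ⟨n ^ (v * m), n ^ (u * (p ^ j : ℕ)), ?_, Subgroup.zpow_mem_zpowers _ _, Subgroup.zpow_mem_zpowers _ _, ?_, ?_⟩
  · rw [← zpow_add, add_comm, huv, zpow_one]
  · have h1 : (n ^ (v * m)) ^ p ^ j = 1 := by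
      rw [← zpow_natCast, ← zpow_mul, show v * m * ((p ^ j : ℕ) : ℤ) = ((p ^ j : ℕ) * (m : ℕ) : ℤ) * v by ring, zpow_mul, hn,
        one_zpow]
    obtain ⟨k, -, hk⟩ := (Nat.dvd_prime_pow hp.out).1 (orderOf_dvd_of_pow_eq_one h1)
    exact ⟨k, hk⟩
  · have h1 : (n ^ (u * ((p ^ j : ℕ) : ℤ))) ^ m = 1 := by
      rw [← zpow_natCast, ← zpow_mul, show u * ((p ^ j : ℕ) : ℤ) * (m : ℤ) = ((p ^ j : ℕ) * (m : ℕ) : ℤ) * u by ring, zpow_mul,
        hn, one_zpow]
    exact Nat.Coprime.coprime_dvd_left (orderOf_dvd_of_pow_eq_one h1) ((Nat.Prime.coprime_iff_not_dvd hp.out).2 hm).symm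

end Cfsg.Agent.H4
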