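import Mathlib
import Cfsg.Agent.H5.UnitCenter
set_option autoImplicit false

/-! The Sylow 2-subgroup of `U_3(4)`. -/

namespace Cfsg.Agent.H4

open Cfsg Matrix
open scoped commutatorElement

/-- the group of pairs `(a,b)` with `b + b^4 = a^5` -/
structure UU (F : Type*) [Field F] where
  a : F
  b : F
  rel : b + b ^ 4 = a ^ 5

namespace UU

variable {F : Type*} [Field F] [Fintype F]

theorem ext' {x y : UU F} (h1 : x.a = y.a) (h2 : x.b = y.b) : x = y := by
  cases x; cases y; simp only at h1 h2; subst h1; subst h2; rfl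

theorem two (hF : Fintype.card F = 16) : (2 : F) = 0 := by
  have h1 : ((Fintype.card F : ℕ) : F) = 0 := FiniteField.cast_card_eq_zero F
  rw [hF] at h1
  have h2 : (2 : F) ^ 4 = 0 := by
    rw [← h1]; norm_num
  exact pow_eq_zero_iff (by norm_num) |>.mp h2

theorem p16 (hF : Fintype.card F = 16) (x : F) : x ^ 16 = x := by
  have := FiniteField.pow_card x
  rwa [hF] at this

theorem add4 (hF : Fintype.card F = 16) (x y : F) : (x + y) ^ 4 = x ^ 4 + y ^ 4 := by
  have h2 := two hF
  linear_combination (2 * x ^ 3 * y + 3 * x ^ 2 * y ^ 2 + 2 * x * y ^ 3) * h2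

theorem addself (hF : Fintype.card F = 16) (x : F) : x + x = 0 := by
  have h2 := two hF
  linear_combination x * h2

theorem eq_of_add (hF : Fintype.card F = 16) {x y : F} (h : x + y = 0) : x = y := by
  have h2 := two hF
  linear_combination h - y * h2

/-- the product -/
def mul' (hF : Fintype.card F = 16) (x y : UU F) : UU F :=
  ⟨x.a + y.a, x.b + y.b + x.a * y.a ^ 4, by
    have h1 := x.rel
    have h2 := y.rel
    have h3 := p16 hF y.a
    have h4 : (x.b + y.b + x.a * y.a ^ 4) ^ 4 = x.b ^ 4 + y.b ^ 4 + x.a ^ 4 * y.a ^ 16 := by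
      rw [add4 hF, add4 hF]; ring
    have h5 : (x.a + y.a) ^ 5 = (x.a ^ 4 + y.a ^ 4) * (x.a + y.a) := by
      rw [← add4 hF]; ring
    rw [h4, h5, h3]
    linear_combination h1 + h2⟩

/-- the inverse -/
def inv' (hF : Fintype.card F = 16) (x : UU F) : UU F :=
  ⟨x.a, x.b ^ 4, by
    have h1 := x.rel
    have h3 := p16 hF x.b
    rw [← pow_mul, h3]
    linear_combination h1⟩

instance instGroupUU [hF : Fact (Fintype.card F = 16)] : Group (UU F) where
  mul := mul' hF.out
  one := ⟨0, 0, by ring⟩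
  inv := inv' hF.out
  mul_assoc x y z := by
    apply ext'
    · exact add_assoc _ _ _
    · show (x.b + y.b + x.a * y.a ^ 4) + z.b + (x.a + y.a) * z.a ^ 4 =
        x.b + (y.b + z.b + y.a * z.a ^ 4) + x.a * (y.a + z.a) ^ 4
      rw [add4 hF.out]; ring
  one_mul x := by
    apply ext'
    · exact zero_add _
    · show 0 + x.b + 0 * x.a ^ 4 = x.b
      ring
  mul_one x := by
    apply ext'
    · exact add_zero _
    · show x.b + 0 + x.a * 0 ^ 4 = x.b
      ring
  inv_mul_cancel x := by
    apply ext'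
    · exact addself hF.out _
    · show x.b ^ 4 + x.b + x.a * x.a ^ 4 = 0
      have h1 := x.rel
      have h2 := addself hF.out (x.a ^ 5)
      linear_combination h1 + h2

variable [hF : Fact (Fintype.card F = 16)]

theorem mul_a (x y : UU F) : (x * y).a = x.a + y.a := rfl
theorem mul_b (x y : UU F) : (x * y).b = x.b + y.b + x.a * y.a ^ 4 := rfl
theorem one_a : (1 : UU F).a = 0 := rfl
theorem one_b : (1 : UU F).b = 0 := rfl
theorem inv_a (x : UU F) : (x⁻¹).a = x.a := rfl
theorem inv_b (x : UU F) : (x⁻¹).b = x.b ^ 4 := rfl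

/-- the additive map `b ↦ b + b^4` -/
def phi (hF : Fintype.card F = 16) : F →+ F where
  toFun b := b + b ^ 4
  map_zero' := by ring
  map_add' x y := by rw [add4 hF]; ring

theorem phi_apply (hF : Fintype.card F = 16) (b : F) : phi hF b = b + b ^ 4 := rfl

theorem card_ker_le (hF : Fintype.card F = 16) : Nat.card (phi hF).ker ≤ 4 := by
  classical
  have h0 : (Polynomial.X + Polynomial.X ^ 4 : Polynomial F) ≠ 0 := by
    intro h
    have := congrArg (fun p => Polynomial.coeff p 4) h
    simp [Polynomial.coeff_X] at this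
  have h1 : ∀ x : (phi hF).ker, x.1 ∈ (Polynomial.X + Polynomial.X ^ 4 : Polynomial F).roots.toFinset := by
    intro x
    rw [Multiset.mem_toFinset, Polynomial.mem_roots h0, Polynomial.IsRoot.def]
    have hx : phi hF x.1 = 0 := x.2
    rw [phi_apply] at hx
    simpa using hx
  have h2 : Nat.card (phi hF).ker ≤ (Polynomial.X + Polynomial.X ^ 4 : Polynomial F).roots.toFinset.card := by
    have := Nat.card_le_card_of_injective (β := (Polynomial.X + Polynomial.X ^ 4 : Polynomial F).roots.toFinset)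
      (fun x : (phi hF).ker => ⟨x.1, h1 x⟩)
      (by intro x y h; exact Subtype.ext (congrArg (fun z => z.1) h))
    rwa [Nat.card_eq_finsetCard] at this
  refine h2.trans ((Multiset.toFinset_card_le _).trans ((Polynomial.card_roots' _).trans ?_))
  have : (Polynomial.X + Polynomial.X ^ 4 : Polynomial F).natDegree ≤ 4 := by
    compute_degree
  exact this

theorem phi_ker (hF : Fintype.card F = 16) : Nat.card (phi hF).ker = 4 ∧ (phi hF).range = (phi hF).ker := by
  have h1 := card_ker_le hF
  have h2 : (phi hF).range ≤ (phi hF).ker := by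
    rintro _ ⟨b, rfl⟩
    rw [AddMonoidHom.mem_ker, phi_apply, phi_apply, add4 hF, ← pow_mul, p16 hF]
    have h3 := addself hF b
    have h4 := addself hF (b ^ 4)
    linear_combination h3 + h4
  have h3 : Nat.card (phi hF).ker * (phi hF).ker.index = 16 := by
    rw [AddSubgroup.card_mul_index, Nat.card_eq_fintype_card, hF]
  rw [AddSubgroup.index_ker] at h3
  have h4 := AddSubgroup.card_le_of_le h2
  have h5 : Nat.card (phi hF).ker = 4 := by nlinarith
  refine ⟨h5, ?_⟩
  apply AddSubgroup.eq_of_le_of_card_ge h2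
  rw [h5] at h3 ⊢
  omega

theorem mem_F4 (hF : Fintype.card F = 16) {c : F} : c ∈ (phi hF).ker ↔ c ^ 4 = c := by
  rw [AddMonoidHom.mem_ker, phi_apply]
  constructor
  · intro h; exact (eq_of_add hF h).symm
  · intro h; rw [h]; exact addself hF c

theorem exists_phi (hF : Fintype.card F = 16) {c : F} (hc : c ^ 4 = c) : ∃ b : F, b + b ^ 4 = c := by
  have h1 : c ∈ (phi hF).ker := (mem_F4 hF).mpr hc
  rw [← (phi_ker hF).2] at h1
  obtain ⟨b, hb⟩ := h1
  exact ⟨b, hb⟩

theorem five (hF : Fintype.card F = 16) (a : F) : (a ^ 5) ^ 4 = a ^ 5 := by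
  have h := p16 hF a
  linear_combination a ^ 4 * h

theorem card_fiber (hF : Fintype.card F = 16) {c : F} (hc : c ^ 4 = c) :
    Nat.card {b : F // b + b ^ 4 = c} = 4 := by
  obtain ⟨b0, hb0⟩ := exists_phi hF hc
  refine (Nat.card_congr ?_).trans (phi_ker hF).1
  refine ⟨fun b => ⟨b.1 + b0, ?_⟩, fun k => ⟨k.1 + b0, ?_⟩, ?_, ?_⟩
  · rw [AddMonoidHom.mem_ker, map_add, phi_apply, phi_apply, b.2, hb0]
    exact addself hF c
  · have hk := k.2
    rw [AddMonoidHom.mem_ker, phi_apply] at hk
    rw [add4 hF]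
    linear_combination hk + hb0
  · intro b
    apply Subtype.ext
    show b.1 + b0 + b0 = b.1
    rw [add_assoc, addself hF, add_zero]
  · intro k
    apply Subtype.ext
    show k.1 + b0 + b0 = k.1
    rw [add_assoc, addself hF, add_zero]

theorem card_UU (hF : Fintype.card F = 16) : Nat.card (UU F) = 64 := by
  classical
  have e : UU F ≃ (Σ a : F, {b : F // b + b ^ 4 = a ^ 5}) :=
    ⟨fun x => ⟨x.a, x.b, x.rel⟩, fun y => ⟨y.1, y.2.1, y.2.2⟩, fun x => rfl, fun y => rfl⟩
  rw [Nat.card_congr e, Nat.card_sigma]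
  rw [Finset.sum_congr rfl (fun a _ => card_fiber hF (five hF a))]
  rw [Finset.sum_const, Finset.card_univ, hF]
  norm_num

/-- the matrix -/
def mat (x : UU F) : Matrix (Fin 3) (Fin 3) F :=
  !![1 + x.b, x.b, x.a; x.b, 1 + x.b, x.a; x.a ^ 4, x.a ^ 4, 1]

theorem mat_mul (x y : UU F) : mat (x * y) = mat x * mat y := by
  have h2 := two hF.out
  have h4 := add4 hF.out x.a y.a
  ext i j
  fin_cases i <;> fin_cases j <;>
    simp [mat, Matrix.mul_apply, Fin.sum_univ_three, mul_a, mul_b]
  · linear_combination (-x.b * y.b) * h2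
  · linear_combination (-x.b * y.b) * h2
  · linear_combination (-x.b * y.a) * h2
  · linear_combination (-x.b * y.b) * h2
  · linear_combination (-x.b * y.b) * h2
  · linear_combination (-x.b * y.a) * h2
  · linear_combination h4 - (x.a ^ 4 * y.b) * h2
  · linear_combination h4 - (x.a ^ 4 * y.b) * h2
  · linear_combination (x.a ^ 4 * y.a) * h2

theorem mat_det (x : UU F) : (mat x).det = 1 := by
  have h2 := two hF.out
  rw [Matrix.det_fin_three]
  simp [mat]
  linear_combination (x.b - x.a ^ 5) * h2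

theorem mat_cols {σ : F →+* F} (hσ : ∀ x, σ x = x ^ 4) (x : UU F) (i j : Fin 3) :
    H5.hB (Fin 3) σ (fun k => mat x k i) (fun k => mat x k j) = if i = j then 1 else 0 := by
  have h2 := two hF.out
  have h16 := p16 hF.out x.a
  have hr := x.rel
  have h4 := add4 hF.out 1 x.b
  rw [one_pow] at h4
  rw [H5.hB_apply]
  simp only [hσ]
  fin_cases i <;> fin_cases j <;> simp [mat, Fin.sum_univ_three]
  · linear_combination (1 + x.b) * h4 + x.a ^ 4 * h16 + hr + (x.b ^ 5 + x.a ^ 5) * h2
  · linear_combination x.b * h4 + x.a ^ 4 * h16 + hr + (x.b ^ 5 + x.a ^ 5) * h2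
  · linear_combination x.a * h4 + h16 + (x.a + x.a * x.b ^ 4) * h2
  · linear_combination x.b * h4 + x.a ^ 4 * h16 + hr + (x.b ^ 5 + x.a ^ 5) * h2
  · linear_combination (1 + x.b) * h4 + x.a ^ 4 * h16 + hr + (x.b ^ 5 + x.a ^ 5) * h2
  · linear_combination x.a * h4 + h16 + (x.a + x.a * x.b ^ 4) * h2
  · linear_combination (x.a ^ 4 + x.a ^ 4 * x.b) * h2
  · linear_combination (x.a ^ 4 + x.a ^ 4 * x.b) * h2
  · linear_combination (x.a ^ 5) * h2

/-- the embedding in `SU_3(4)` -/
def toSU {σ : F →+* F} (hσ : ∀ x, σ x = x ^ 4) : UU F →* SU 3 F 4 where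
  toFun x := H5.mkSU hσ (mat x) (mat_cols hσ x) (mat_det x)
  map_one' := by
    apply Subtype.ext
    apply Subtype.ext
    show mat (1 : UU F) = 1
    ext i j
    fin_cases i <;> fin_cases j <;> simp [mat, one_a, one_b]
  map_mul' x y := by
    apply Subtype.ext
    apply Subtype.ext
    exact mat_mul x y

theorem toSU_inj {σ : F →+* F} (hσ : ∀ x, σ x = x ^ 4) : Function.Injective (toSU hσ) := by
  intro x y h
  have h1 : mat x = mat y := congrArg (fun z : SU 3 F 4 => z.1.1) h
  apply ext'
  · have := congrFun (congrFun h1 0) 2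
    simpa [mat] using this
  · have := congrFun (congrFun h1 0) 1
    simpa [mat] using this

end UU

/-- the structure facts -/
def GoodU (G : Type*) [Group G] : Prop :=
  Nat.card G = 64 ∧ Nat.card (Subgroup.center G) = 4 ∧ (∀ x : G, x * x ∈ Subgroup.center G) ∧
  (∀ x : G, x * x = 1 → x ∈ Subgroup.center G) ∧ (∀ z ∈ Subgroup.center G, z * z = 1) ∧
  (∀ z ∈ Subgroup.center G, ∃ x y : G, ⁅x, y⁆ = z)

theorem GoodU.congr {G H : Type*} [Group G] [Group H] (e : G ≃* H) (h : GoodU G) : GoodU H := by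
  obtain ⟨h1, h2, h3, h4, h5, h6⟩ := h
  have hm : ∀ z : H, z ∈ Subgroup.center H ↔ e.symm z ∈ Subgroup.center G := by
    intro z
    constructor
    · intro hz
      exact (Subgroup.centerCongr e.symm ⟨z, hz⟩).2
    · intro hz
      have h1 := (Subgroup.centerCongr e ⟨_, hz⟩).2
      have h2 : ((Subgroup.centerCongr e ⟨_, hz⟩ : Subgroup.center H) : H) = e (e.symm z) := rfl
      rw [h2, e.apply_symm_apply] at h1
      exact h1
  refine ⟨?_, ?_, ?_, ?_, ?_, ?_⟩
  · rw [← Nat.card_congr e.toEquiv, h1]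
  · rw [← Nat.card_congr (Subgroup.centerCongr e).toEquiv, h2]
  · intro x
    rw [hm, map_mul]
    exact h3 _
  · intro x hx
    rw [hm]
    apply h4
    rw [← map_mul, hx, map_one]
  · intro z hz
    have := h5 _ ((hm z).mp hz)
    rw [← map_mul] at this
    exact e.symm.injective (by rw [this, map_one])
  · intro z hz
    obtain ⟨x, y, hxy⟩ := h6 _ ((hm z).mp hz)
    refine ⟨e x, e y, ?_⟩
    rw [← map_commutatorElement, hxy]
    simp

theorem goodU_UU {F : Type*} [Field F] [Fintype F] [hF : Fact (Fintype.card F = 16)] :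
    GoodU (UU F) := by
  have hker := (UU.phi_ker hF.out).1
  have hcen : ∀ x : UU F, x ∈ Subgroup.center (UU F) ↔ x.a = 0 := by
    intro x
    rw [Subgroup.mem_center_iff]
    constructor
    · intro h
      by_contra ha
      have key : ∀ t : F, t ^ 4 = t := by
        intro t
        obtain ⟨d, hd⟩ := UU.exists_phi hF.out (UU.five hF.out (x.a * t))
        have h1 := congrArg UU.b (h ⟨x.a * t, d, hd⟩)
        rw [UU.mul_b, UU.mul_b] at h1
        simp only at h1
        have h2 : x.a ^ 5 * (t - t ^ 4) = 0 := by linear_combination h1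
        rcases mul_eq_zero.mp h2 with h3 | h3
        · exact absurd (pow_eq_zero_iff (by norm_num) |>.mp h3) ha
        · exact (sub_eq_zero.mp h3).symm
      have h2 : (UU.phi hF.out).ker = ⊤ := by
        rw [eq_top_iff]
        intro t _
        rw [UU.mem_F4]
        exact key t
      rw [h2, AddSubgroup.card_top, Nat.card_eq_fintype_card, hF.out] at hker
      omega
    · intro ha y
      apply UU.ext'
      · rw [UU.mul_a, UU.mul_a, add_comm]
      · rw [UU.mul_b, UU.mul_b, ha]; ring
  have hcb : ∀ x : UU F, x.a = 0 → x.b ^ 4 = x.b := by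
    intro x ha
    have := x.rel
    rw [ha] at this
    exact (UU.eq_of_add hF.out (by rw [this]; ring)).symm
  refine ⟨UU.card_UU hF.out, ?_, ?_, ?_, ?_, ?_⟩
  · rw [← hker]
    refine Nat.card_congr ⟨fun x => ⟨x.1.b, ?_⟩, fun b => ⟨⟨0, b.1, ?_⟩, ?_⟩, ?_, ?_⟩
    · rw [UU.mem_F4]
      exact hcb _ ((hcen _).mp x.2)
    · have := b.2
      rw [AddMonoidHom.mem_ker, UU.phi_apply] at this
      rw [this]; ring
    · rw [hcen]
    · intro x
      apply Subtype.ext
      apply UU.ext'
      · exact ((hcen _).mp x.2).symm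
      · rfl
    · intro b
      rfl
  · intro x
    rw [hcen, UU.mul_a]
    exact UU.addself hF.out _
  · intro x hx
    rw [hcen]
    have h1 := congrArg UU.b hx
    rw [UU.mul_b, UU.one_b, UU.addself hF.out, zero_add] at h1
    have h2 : x.a ^ 5 = 0 := by rw [← h1]; ring
    exact pow_eq_zero_iff (by norm_num) |>.mp h2
  · intro z hz
    rw [hcen] at hz
    apply UU.ext'
    · rw [UU.mul_a, UU.one_a, hz, add_zero]
    · rw [UU.mul_b, UU.one_b, hz, UU.addself hF.out]; ring
  · intro z hz
    rw [hcen] at hz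
    have hzb := hcb z hz
    obtain ⟨c, hc⟩ := UU.exists_phi hF.out hzb
    obtain ⟨x, hx⟩ := UU.exists_phi hF.out (UU.five hF.out (1 : F))
    obtain ⟨d, hd⟩ := UU.exists_phi hF.out (UU.five hF.out c)
    refine ⟨⟨1, x, hx⟩, ⟨c, d, hd⟩, ?_⟩
    rw [commutatorElement_def, _root_.mul_inv_eq_iff_eq_mul, _root_.mul_inv_eq_iff_eq_mul]
    apply UU.ext'
    · simp only [UU.mul_a, hz]
      ring
    · simp only [UU.mul_b, UU.mul_a, hz]
      have h2 := UU.two hF.out
      linear_combination hc - c * h2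

end Cfsg.Agent.H4
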